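import Mathlib
import Cfsg.Prelude.Def_Blocks
import Cfsg.Agent.Lib.Helper35.BlockKnorr
import Cfsg.Agent.Lib.Helper78.DefectCard

/-!
# Fong's theorem on blocks of maximal defect covering an invariant block
-/

set_option autoImplicit false
set_option linter.unusedSectionVars false

namespace Cfsg.Agent.Lib.Helper35

open Cfsg Cfsg.Agent.Lib.Helper15 Cfsg.Agent.Lib.Helper78 Cfsg.Agent.Lib.Helper74
open scoped ComplexConjugate

section fong

variable {G : Type*} [Group G] [Fintype G] (N : Subgroup G) [hN : N.Normal] [Fintype N]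
variable {M : Ideal AlgInt}

local notation "cjS" => Cfsg.Agent.Lib.Helper16.cj

open Classical in
/-- the `N`-classes contained in the `G`-class of `x` -/
noncomputable def subClasses (x : N) : Finset (ConjClasses N) :=
  Finset.univ.filter (fun C : ConjClasses N => IsConj (x : G) ((Quotient.out C : N) : G))

theorem inducedCentralChar_eq_sum_subClasses (θ : IrrCharacter N) (x : N) :
    inducedCentralChar N (θ : N → ℂ) (x : G) =
      ∑ C ∈ subClasses N x, centralChar (θ : N → ℂ) (Quotient.out C) := by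
  classical
  have hcl : IsClassFunction N (fun n : N => classInd (x : G) (n : G)) := by
    intro g h
    exact classInd_isClassFunction (x : G) (g : G) (h : G)
  rw [inducedCentralChar_eq_omega, omega_eq_sum_conjClasses (irr_isClassFunction θ) hcl]
  unfold subClasses
  rw [Finset.sum_filter]
  apply Finset.sum_congr rfl
  intro C _
  unfold classInd
  split_ifs <;> simp

theorem exists_of_mem_subClasses {x : N} {C : ConjClasses N} (hC : C ∈ subClasses N x) :
    ∃ g : G, (Quotient.out C : N) = ⟨g * x * g⁻¹, hN.conj_mem x x.2 g⟩ := by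
  classical
  unfold subClasses at hC
  obtain ⟨g, hg⟩ := isConj_iff.mp (Finset.mem_filter.mp hC).2
  exact ⟨g, Subtype.ext hg.symm⟩

/-- for a `G`-invariant block `b` -/
theorem memLocalIdeal_inducedCentralChar_sub_card (hM : M.IsPrime) {b : Set (IrrCharacter N)}
    (hb : IsPBlock M b) (hinv : ∀ g : G, ∀ θ ∈ b, cjIrr N g θ ∈ b) {θ : IrrCharacter N}
    (hθ : θ ∈ b) (x : N) :
    MemLocalIdeal M (inducedCentralChar N (θ : N → ℂ) (x : G) -
      ((subClasses N x).card : ℂ) * centralChar (θ : N → ℂ) x) := by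
  rw [inducedCentralChar_eq_sum_subClasses, ← nsmul_eq_mul, ← Finset.sum_const,
    ← Finset.sum_sub_distrib]
  apply MemLocalIdeal.sum hM
  intro C hC
  obtain ⟨g, hg⟩ := exists_of_mem_subClasses N hC
  rw [hg, ← centralChar_cj]
  exact IsPBlock.sameBlock hM hb (hinv g θ hθ) hθ x

theorem card_subClasses_mul (x : N) :
    (subClasses N x).card * (Subgroup.centralizer ({x} : Set N)).index =
      (Subgroup.centralizer ({(x : G)} : Set G)).index := by
  have h1 := centralChar_eq_inducedCentralChar_of_over N (trivIrr G).2 (trivIrr N).2 (by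
    have h1 := classInner_irr_self (trivIrr N)
    have h2 : (fun n : N => (trivIrr G : G → ℂ) n) = (trivIrr N : N → ℂ) := rfl
    rw [h2, h1]
    exact one_ne_zero) x
  rw [inducedCentralChar_eq_sum_subClasses, Cfsg.Agent.Lib.Helper77.centralChar_trivIrr] at h1
  have h2 : ∀ C ∈ subClasses N x, centralChar ((trivIrr N : IrrCharacter N) : N → ℂ)
      (Quotient.out C) = ((Subgroup.centralizer ({x} : Set N)).index : ℂ) := by
    intro C hC
    obtain ⟨g, hg⟩ := exists_of_mem_subClasses N hC
    rw [hg, ← centralChar_cj]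
    have : cj N g ((trivIrr N : IrrCharacter N) : N → ℂ) = (trivIrr N : IrrCharacter N) := rfl
    rw [this, Cfsg.Agent.Lib.Helper77.centralChar_trivIrr]
  rw [Finset.sum_congr rfl h2, Finset.sum_const, nsmul_eq_mul] at h1
  exact_mod_cast h1.symm

/-- `b` invariant, `B` covers `b`, `x ∈ N` with `e_b(x)` and `ω_B(x)` units: then `x` is a defect
class of `b` and the `p`-part of `|C_G(x)|` is `p ^ (d(b) + ν_p |G : N|)`. -/
theorem isDefectClass_of_unit {p : ℕ} [Fact p.Prime] (hM : IsPModular p M)
    {b : Set (IrrCharacter N)} (hb : IsPBlock M b) (hinv : ∀ g : G, ∀ θ ∈ b, cjIrr N g θ ∈ b)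
    {B : Set (IrrCharacter G)} (hB : IsPBlock M B) (hc : Covers N B b) {χ : IrrCharacter G}
    (hχ : χ ∈ B) {x : N} (hx1 : ¬ MemLocalIdeal M (blockCoeff b x))
    (hx2 : ¬ MemLocalIdeal M (centralChar (χ : G → ℂ) (x : G))) :
    IsDefectClass M b x ∧
      (Nat.card (Subgroup.centralizer ({(x : G)} : Set G))).factorization p =
        blockDefect p b + N.index.factorization p := by
  have hMp := pmod_isPrime hM
  have hp : p.Prime := hM.1
  have key : ∀ θ ∈ b, ¬ MemLocalIdeal M
      (((subClasses N x).card : ℂ) * centralChar (θ : N → ℂ) x) := by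
    intro θ hθ hcon
    apply hx2
    have h1 := Covers.memLocalIdeal N hMp hB hb hc χ hχ θ hθ x
    have h2 := memLocalIdeal_inducedCentralChar_sub_card N hMp hb hinv hθ x
    have h3 := MemLocalIdeal.add hMp (MemLocalIdeal.add hMp h1 h2) hcon
    convert h3 using 1
    ring
  have hdc : IsDefectClass M b x := by
    refine ⟨memLocalRing_blockCoeff hMp hb x, hx1, fun θ hθ hcon => ?_⟩
    exact key θ hθ (MemLocalIdeal.mul_left hMp (memLocalRing_natCast hMp _) hcon)
  refine ⟨hdc, ?_⟩
  obtain ⟨θ, hθ⟩ := IsPBlock.nonempty hMp hb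
  have hr : ¬ p ∣ (subClasses N x).card := by
    intro hcon
    apply key θ hθ
    exact MemLocalIdeal.mul_right hMp ((memLocalIdeal_natCast_iff hM _).mpr hcon)
      (memLocalRing_centralChar hMp θ x)
  have h1 := factorization_centralizer_of_isDefectClass hM hb hdc
  have h2 := card_subClasses_mul N x
  set CN := Subgroup.centralizer ({x} : Set N) with hCN
  set CG := Subgroup.centralizer ({(x : G)} : Set G) with hCG
  have h3 : CN.index.factorization p = CG.index.factorization p := by
    have hr0 : (subClasses N x).card ≠ 0 := fun h => hr (by rw [h]; exact dvd_zero p)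
    rw [← h2, Nat.factorization_mul hr0
      Subgroup.index_ne_zero_of_finite, Finsupp.add_apply,
      Nat.factorization_eq_zero_of_not_dvd hr, zero_add]
  have h4 : CN.index.factorization p + (Nat.card CN).factorization p =
      (Nat.card N).factorization p := by
    rw [← CN.index_mul_card, Nat.factorization_mul Subgroup.index_ne_zero_of_finite
      Nat.card_pos.ne']
    rfl
  have h5 : CG.index.factorization p + (Nat.card CG).factorization p =
      (Nat.card G).factorization p := by
    rw [← CG.index_mul_card, Nat.factorization_mul Subgroup.index_ne_zero_of_finite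
      Nat.card_pos.ne']
    rfl
  have h6 : N.index.factorization p + (Nat.card N).factorization p =
      (Nat.card G).factorization p := by
    rw [← N.index_mul_card, Nat.factorization_mul Subgroup.index_ne_zero_of_finite
      Nat.card_pos.ne']
    rfl
  omega

/-- the irreducible characters of `G` lying over a member of `b` -/
def overSet (b : Set (IrrCharacter N)) : Set (IrrCharacter G) :=
  {χ | ∃ θ ∈ b, classInner (fun n : N => (χ : G → ℂ) n) (θ : N → ℂ) ≠ 0}

theorem covers_blockOf_of_mem_overSet (hM : M.IsPrime) {b : Set (IrrCharacter N)}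
    {χ : IrrCharacter G} (hχ : χ ∈ overSet N b) : Covers N (blockOf M (χ : G → ℂ)) b := by
  obtain ⟨θ, hθ, h⟩ := hχ
  exact ⟨χ, mem_blockOf_self hM χ, θ, hθ, h⟩

theorem mem_overSet_of_covers (hM : M.IsPrime) {b : Set (IrrCharacter N)} (hb : IsPBlock M b)
    {B : Set (IrrCharacter G)} (hB : IsPBlock M B) (hc : Covers N B b) {χ : IrrCharacter G}
    (hχ : χ ∈ B) : χ ∈ overSet N b := by
  obtain ⟨ψ, hψ⟩ := Cfsg.Agent.Lib.Helper80.exists_constituent_restrict χ N
  obtain ⟨g, hg⟩ := exists_cjIrr_mem_of_covers N hM hB hb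
    (Covers.memLocalIdeal N hM hB hb hc) hχ hψ
  exact ⟨_, hg, (over_cjIrr_iff N χ g ψ).mpr hψ⟩

theorem overSet_closed (hM : M.IsPrime) {b : Set (IrrCharacter N)} (hb : IsPBlock M b) :
    ∀ χ ∈ overSet N b, blockOf M (χ : G → ℂ) ⊆ overSet N b := by
  intro χ hχ χ' hχ'
  exact mem_overSet_of_covers N hM hb ⟨χ, rfl⟩ (covers_blockOf_of_mem_overSet N hM hχ) hχ'

theorem conjUnion_eq_of_inv {b : Set (IrrCharacter N)}
    (hinv : ∀ g : G, ∀ θ ∈ b, cjIrr N g θ ∈ b) : conjUnion N b = b := by
  ext φ
  constructor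
  · rintro ⟨g, hg⟩
    have := hinv g⁻¹ _ hg
    rwa [cjIrr_cjIrr, mul_inv_cancel, show cjIrr N 1 φ = φ from Subtype.ext (cj_one N _)] at this
  · intro h
    exact ⟨1, by rwa [show cjIrr N 1 φ = φ from Subtype.ext (cj_one N _)]⟩

/-- the idempotent of an invariant block `b` is the sum of the idempotents of the covering blocks -/
theorem extend_blockCoeff_eq (hM : M.IsPrime) {b : Set (IrrCharacter N)} (hb : IsPBlock M b)
    (hinv : ∀ g : G, ∀ θ ∈ b, cjIrr N g θ ∈ b) :
    extendByZero N (blockCoeff b) = blockCoeff (overSet N b) := by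
  classical
  have ha : IsClassFunction G (extendByZero N (blockCoeff b)) := by
    have := extend_blockCoeff_conjUnion_isClassFunction N b
    rwa [conjUnion_eq_of_inv N hinv] at this
  apply eq_of_omega_eq ha (blockCoeff_isClassFunction _)
  intro χ
  obtain ⟨ψ, hψ⟩ := Cfsg.Agent.Lib.Helper80.exists_constituent_restrict χ N
  have hres : (fun n : N => extendByZero N (blockCoeff b) (n : G)) = blockCoeff b :=
    funext fun n => extendByZero_coe N _ n
  rw [omega_eq_of_support N χ (fun g hg => extendByZero_not_mem N _ hg),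
    omega_restrict_of_over N χ.2 ψ.2 hψ ha, hres, omega_blockCoeff, omega_blockCoeff]
  have : ψ ∈ b ↔ χ ∈ overSet N b := by
    constructor
    · intro h
      exact ⟨ψ, h, hψ⟩
    · intro h
      have h1 := exists_cjIrr_mem_of_covers N hM ⟨χ, rfl⟩ hb
        (Covers.memLocalIdeal N hM ⟨χ, rfl⟩ hb (covers_blockOf_of_mem_overSet N hM h))
        (mem_blockOf_self hM χ) hψ
      have h2 : ψ ∈ conjUnion N b := h1
      rwa [conjUnion_eq_of_inv N hinv] at h2
  simp only [this]

/-- **Fong**: an invariant block is covered by a block of defect `d(b) + ν_p |G : N|`. -/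
theorem exists_covering_full_defect {p : ℕ} [Fact p.Prime] (hM : IsPModular p M)
    {b : Set (IrrCharacter N)} (hb : IsPBlock M b) (hinv : ∀ g : G, ∀ θ ∈ b, cjIrr N g θ ∈ b) :
    ∃ B : Set (IrrCharacter G), IsPBlock M B ∧ Covers N B b ∧
      blockDefect p B = blockDefect p b + N.index.factorization p := by
  have hMp := pmod_isPrime hM
  obtain ⟨θ, hθ⟩ := IsPBlock.nonempty hMp hb
  obtain ⟨χ, hχθ⟩ := exists_over N θ
  have hB' : IsPBlock M (blockOf M (χ : G → ℂ)) := ⟨χ, rfl⟩
  have hc' : Covers N (blockOf M (χ : G → ℂ)) b := ⟨χ, mem_blockOf_self hMp χ, θ, hθ, hχθ⟩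
  obtain ⟨x, hx1, hx2⟩ := exists_coeff_centralChar_unit N hMp hB' hb hc' (mem_blockOf_self hMp χ)
  obtain ⟨hdc, hcard⟩ := isDefectClass_of_unit N hM hb hinv hB' hc' (mem_blockOf_self hMp χ) hx1 hx2
  have h1 : ¬ MemLocalIdeal M (blockCoeff (overSet N b) (x : G)) := by
    rw [← extend_blockCoeff_eq N hMp hb hinv, extendByZero_coe]
    exact hx1
  obtain ⟨φ, hφ, hφx⟩ := exists_block_coeff_of_closed hMp (overSet_closed N hMp hb) h1
  have hB'' : IsPBlock M (blockOf M (φ : G → ℂ)) := ⟨φ, rfl⟩
  have hc'' := covers_blockOf_of_mem_overSet N hMp hφ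
  refine ⟨_, hB'', hc'', ?_⟩
  have hdc'' : IsDefectClass M (blockOf M (φ : G → ℂ)) (x : G) := by
    refine ⟨memLocalRing_blockCoeff hMp hB'' _, hφx, fun χ'' hχ'' hcon => ?_⟩
    apply hx2
    have h2 := Covers.memLocalIdeal N hMp hB'' hb hc'' χ'' hχ'' θ hθ x
    have h3 := Covers.memLocalIdeal N hMp hB' hb hc' χ (mem_blockOf_self hMp χ) θ hθ x
    have h4 := MemLocalIdeal.add hMp (MemLocalIdeal.sub hMp h3 h2) hcon
    convert h4 using 1
    ring
  rw [← factorization_centralizer_of_isDefectClass hM hB'' hdc'', hcard]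

/-- **Fong's theorem** (S0970). -/
theorem fong {p : ℕ} [Fact p.Prime] (hM : IsPModular p M)
    {b : Set (IrrCharacter N)} (hb : IsPBlock M b) (hinv : ∀ g : G, ∀ θ ∈ b, cjIrr N g θ ∈ b)
    {B : Set (IrrCharacter G)} (hB : IsPBlock M B) (hc : Covers N B b)
    (hmax : ∀ B' : Set (IrrCharacter G), IsPBlock M B' → Covers N B' b →
      blockDefect p B' ≤ blockDefect p B) {P : Subgroup G} (hP : IsDefectGroup p M B P) :
    ¬ p ∣ (P ⊔ N).index ∧ IsDefectGroup p M b ((P ⊓ N).subgroupOf N) ∧
      blockDefect p B = blockDefect p b + N.index.factorization p := by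
  have hMp := pmod_isPrime hM
  have hp : p.Prime := hM.1
  obtain ⟨χ, hχ⟩ := IsPBlock.nonempty hMp hB
  obtain ⟨θ, hθ⟩ := IsPBlock.nonempty hMp hb
  obtain ⟨x, hx1, hx2⟩ := exists_coeff_centralChar_unit N hMp hB hb hc hχ
  obtain ⟨g, hg⟩ := Cfsg.Agent.Lib.Helper16.minmax_b hM hB hP hχ hx2
  set x' : N := ⟨g⁻¹ * x * g, by simpa using hN.conj_mem x x.2 g⁻¹⟩ with hx'
  have hPx' : P ≤ Subgroup.centralizer ({(x' : G)} : Set G) := by
    intro z hz
    have h1 := Subgroup.mem_centralizer_singleton_iff.mp
      (hg (Cfsg.Agent.Lib.Helper16.conj_mem_cj (x := g) hz))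
    rw [Subgroup.mem_centralizer_singleton_iff]
    show z * (g⁻¹ * x * g) = g⁻¹ * x * g * z
    calc z * (g⁻¹ * x * g) = g⁻¹ * (g * z * g⁻¹ * x) * g := by group
      _ = g⁻¹ * (x * (g * z * g⁻¹)) * g := by rw [h1]
      _ = g⁻¹ * x * g * z := by group
  have hx1' : ¬ MemLocalIdeal M (blockCoeff b x') := by
    have h1 := blockCoeff_blockOf_of_cjIrr_mem N hMp hb (hinv g θ hθ) x'
    rw [← IsPBlock.eq_blockOf hMp hb hθ] at h1
    rw [← h1]
    convert hx1 using 3
    apply Subtype.ext
    show g * (g⁻¹ * x * g) * g⁻¹ = x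
    group
  have hx2' : ¬ MemLocalIdeal M (centralChar (χ : G → ℂ) (x' : G)) := by
    have := Cfsg.Agent.Lib.Helper77.centralChar_conj χ g⁻¹ x
    rw [inv_inv] at this
    show ¬ MemLocalIdeal M (centralChar (χ : G → ℂ) (g⁻¹ * x * g))
    rw [this]
    exact hx2
  obtain ⟨hdc, hcard⟩ := isDefectClass_of_unit N hM hb hinv hB hc hχ hx1' hx2'
  have hPcard := card_of_isDefectGroup hM hB hP
  have hle : blockDefect p B ≤ blockDefect p b + N.index.factorization p := by
    rw [← hcard]
    apply (hp.pow_dvd_iff_le_factorization Nat.card_pos.ne').mp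
    rw [← hPcard]
    exact Subgroup.card_dvd_of_le hPx'
  obtain ⟨B'', hB'', hc'', hd''⟩ := exists_covering_full_defect N hM hb hinv
  have hge := hmax B'' hB'' hc''
  have hdef : blockDefect p B = blockDefect p b + N.index.factorization p := by omega
  obtain ⟨Q, hQ⟩ := Cfsg.Agent.Lib.Helper16.exists_isDefectGroup hM hb
  have hQcard := card_of_isDefectGroup hM hb hQ
  have h1 := card_inf_le N hM hB hb hc hP hQ
  rw [hQcard] at h1
  have h2 : Nat.card (P ⊓ N : Subgroup G) * N.relIndex P = Nat.card P := by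
    have := (N.subgroupOf P).card_mul_index
    rwa [← Subgroup.card_map_of_injective P.subtype_injective, Subgroup.subgroupOf_map_subtype,
      inf_comm] at this
  obtain ⟨j, -, hj⟩ := (Nat.dvd_prime_pow hp).mp (hPcard ▸ Subgroup.relIndex_dvd_card N P)
  obtain ⟨i, -, hi⟩ := (Nat.dvd_prime_pow hp).mp (hPcard ▸ Dvd.intro _ h2)
  have hjle : j ≤ N.index.factorization p := by
    apply (hp.pow_dvd_iff_le_factorization Subgroup.index_ne_zero_of_finite).mp
    rw [← hj]
    exact Subgroup.relIndex_dvd_index_of_normal N P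
  have hile : i ≤ blockDefect p b := by
    rw [hi] at h1
    exact (Nat.pow_le_pow_iff_right hp.one_lt).mp h1
  have hij : i + j = blockDefect p B := by
    rw [hi, hj, hPcard, ← pow_add] at h2
    exact Nat.pow_right_injective hp.two_le h2
  have hi' : i = blockDefect p b := by omega
  have hj' : j = N.index.factorization p := by omega
  refine ⟨?_, ?_, hdef⟩
  · have h3 := Subgroup.relIndex_mul_index (le_sup_right : N ≤ P ⊔ N)
    rw [Subgroup.relIndex_sup_right, hj, hj'] at h3
    intro hcon
    have h4 : p ^ (N.index.factorization p + 1) ∣ N.index := by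
      rw [pow_succ]
      calc p ^ N.index.factorization p * p ∣ p ^ N.index.factorization p * (P ⊔ N).index :=
            Nat.mul_dvd_mul_left _ hcon
        _ = N.index := h3
    have := (hp.pow_dvd_iff_le_factorization Subgroup.index_ne_zero_of_finite).mp h4
    omega
  · rw [Cfsg.Agent.Lib.Helper16.isDefectGroup_iff]
    refine ⟨x', hdc, ?_, ?_⟩
    · intro z hz
      have h3 : (z : G) ∈ P ⊓ N := hz
      have h4 := Subgroup.mem_centralizer_singleton_iff.mp (hPx' h3.1)
      rw [Subgroup.mem_centralizer_singleton_iff]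
      exact Subtype.ext h4
    · rw [factorization_centralizer_of_isDefectClass hM hb hdc,
        ← Subgroup.card_map_of_injective N.subtype_injective,
        Subgroup.map_subgroupOf_eq_of_le inf_le_right, hi, hi']

end fong

end Cfsg.Agent.Lib.Helper35
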