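import Mathlib
import Cfsg.Agent.Lib.Helper35.BlichA
import Cfsg.Agent.Lib.Helper3.Induction
import Cfsg.Agent.S0176

/-!
# Nilpotent linear groups of degree `n` have an abelian subgroup of index dividing `n!`
-/

set_option autoImplicit false

namespace Cfsg.Agent.Lib.Helper35

open Cfsg Cfsg.Agent.Lib Cfsg.Agent.Lib.Helper3 Subgroup

universe u

theorem HasFaithful.exists_abelian_index_dvd_factorial {n : ℕ} {P : Type u} [Group P] [Finite P]
    [Group.IsNilpotent P] (h : HasFaithful n P) :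
    ∃ B : Subgroup P, (∀ x ∈ B, ∀ y ∈ B, x * y = y * x) ∧ B.index ∣ n.factorial := by
  classical
  have := Fintype.ofFinite P
  obtain ⟨χ, h1, h2, h3⟩ := h
  have : Fintype (IrrCharacter P) := Fintype.ofFinite _
  obtain ⟨m, hm⟩ := IsCharacter.exists_decomp h1
  have hmono : ∀ ψ : IrrCharacter P, ∃ (H : Subgroup P) (lam : H →* ℂˣ),
      (ψ : P → ℂ) = indFun H (fun h => (lam h : ℂ)) := fun ψ => Cfsg.Agent.S0176.result ψ.1 ψ.2
  choose H lam hH using hmono
  let S : Finset (IrrCharacter P) := Finset.univ.filter (fun ψ => m ψ ≠ 0)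
  let Ω : Type u := Σ ψ : S, P ⧸ H ψ.1
  let B : Subgroup P := (MulAction.toPermHom P Ω).ker
  have hB : ∀ b ∈ B, ∀ ψ : IrrCharacter P, m ψ ≠ 0 → ∀ t : P, t⁻¹ * b * t ∈ H ψ := by
    intro b hb ψ hψ t
    have h4 : MulAction.toPermHom P Ω b = 1 := hb
    have h5 := congrArg (fun e : Equiv.Perm Ω => e ⟨⟨ψ, by simp [S, hψ]⟩, (t : P ⧸ H ψ)⟩) h4
    simp only [MulAction.toPermHom_apply, MulAction.toPerm_apply, Equiv.Perm.coe_one, id_eq] at h5
    have h6 : (b • (t : P ⧸ H ψ)) = (t : P ⧸ H ψ) := by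
      have := (Sigma.mk.injEq _ _ _ _).mp h5
      exact eq_of_heq this.2
    rw [MulAction.Quotient.smul_coe, smul_eq_mul] at h6
    have h7 := QuotientGroup.eq.mp h6
    have h8 : t⁻¹ * b * t = ((b * t)⁻¹ * t)⁻¹ := by group
    rw [h8]
    exact inv_mem h7
  refine ⟨B, ?_, ?_⟩
  · intro x hx y hy
    have key : χ (x * y * x⁻¹ * y⁻¹) = χ 1 := by
      rw [hm]
      simp only [Finset.sum_apply, Pi.smul_apply]
      apply Finset.sum_congr rfl
      intro ψ _
      by_cases hψ : m ψ = 0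
      · rw [hψ, zero_smul, zero_smul]
      · congr 1
        rw [hH ψ]
        unfold indFun
        congr 1
        apply Finset.sum_congr rfl
        intro t _
        have hx' := hB x hx ψ hψ t
        have hy' := hB y hy ψ hψ t
        have e : t⁻¹ * (x * y * x⁻¹ * y⁻¹) * t =
            (t⁻¹ * x * t) * (t⁻¹ * y * t) * (t⁻¹ * x * t)⁻¹ * (t⁻¹ * y * t)⁻¹ := by group
        have hmem : t⁻¹ * (x * y * x⁻¹ * y⁻¹) * t ∈ H ψ := by
          rw [e]
          exact mul_mem (mul_mem (mul_mem hx' hy') (inv_mem hx')) (inv_mem hy')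
        have hone : t⁻¹ * 1 * t ∈ H ψ := by
          rw [mul_one, inv_mul_cancel]; exact one_mem _
        rw [extendByZero_apply_mem _ _ hmem, extendByZero_apply_mem _ _ hone]
        have e1 : (⟨t⁻¹ * (x * y * x⁻¹ * y⁻¹) * t, hmem⟩ : H ψ) =
            ⟨_, hx'⟩ * ⟨_, hy'⟩ * (⟨_, hx'⟩ : H ψ)⁻¹ * (⟨_, hy'⟩ : H ψ)⁻¹ := Subtype.ext e
        have e2 : (⟨t⁻¹ * 1 * t, hone⟩ : H ψ) = 1 := Subtype.ext (by simp)
        rw [e1, e2, map_mul, map_mul, map_mul, map_inv, map_inv, map_one]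
        congr 1
        rw [mul_comm (lam ψ ⟨_, hx'⟩) (lam ψ ⟨_, hy'⟩), mul_inv_cancel_right, mul_inv_cancel]
    have h9 := h2 _ key
    have : x * y = (x * y * x⁻¹ * y⁻¹) * (y * x) := by group
    rw [this, h9, one_mul]
  · have hidx : B.index ∣ (Nat.card Ω).factorial := by
      have h4 : B.index = Nat.card (MulAction.toPermHom P Ω).range := index_ker _
      rw [h4]
      have h5 := card_subgroup_dvd_card (MulAction.toPermHom P Ω).range
      have : Fintype Ω := Fintype.ofFinite _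
      rwa [Nat.card_eq_fintype_card (α := Equiv.Perm Ω), Fintype.card_perm,
        ← Nat.card_eq_fintype_card] at h5
    apply hidx.trans
    apply Nat.factorial_dvd_factorial
    have hdeg : ∀ ψ : IrrCharacter P, (ψ : P → ℂ) 1 = ((H ψ).index : ℂ) := by
      intro ψ
      conv_lhs => rw [hH ψ]
      rw [indFun_one]
      simp
    have hcardΩ : Nat.card Ω = ∑ ψ ∈ S, (H ψ).index := by
      have : ∀ ψ : S, Fintype (P ⧸ H ψ.1) := fun _ => Fintype.ofFinite _
      rw [Nat.card_eq_fintype_card, Fintype.card_sigma, ← Finset.sum_coe_sort S]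
      apply Finset.sum_congr rfl
      intro ψ _
      rw [← Nat.card_eq_fintype_card]
      rfl
    have hn : (n : ℂ) = ∑ ψ : IrrCharacter P, ((m ψ * (H ψ).index : ℕ) : ℂ) := by
      rw [← h3, hm, Finset.sum_apply]
      apply Finset.sum_congr rfl
      intro φ _
      rw [Pi.smul_apply, nsmul_eq_mul, Nat.cast_mul, hdeg]
    rw [← Nat.cast_sum] at hn
    have hn' : n = ∑ ψ : IrrCharacter P, m ψ * (H ψ).index := by exact_mod_cast hn
    rw [hcardΩ, hn']
    calc ∑ ψ ∈ S, (H ψ).index ≤ ∑ ψ ∈ S, m ψ * (H ψ).index := by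
          apply Finset.sum_le_sum
          intro ψ hψ
          have : m ψ ≠ 0 := (Finset.mem_filter.mp hψ).2
          exact Nat.le_mul_of_pos_left _ (Nat.pos_of_ne_zero this)
      _ ≤ ∑ ψ : IrrCharacter P, m ψ * (H ψ).index :=
          Finset.sum_le_sum_of_subset (Finset.subset_univ S)

end Cfsg.Agent.Lib.Helper35
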