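import Mathlib
import Cfsg.Agent.Lib.Helper35.BlichB
import Cfsg.Agent.Lib.Helper35.BlichC

/-!
# Jordan's theorem with the Blichfeldt bound: assembly
-/

set_option autoImplicit false

namespace Cfsg.Agent.Lib.Helper35

open Cfsg Cfsg.Agent.Lib Subgroup

universe u

/-- numeric part: a number all of whose prime factors are `≤ n + 1` and whose `p`-parts are bounded by
`p ^ v_p(n!) * c`. -/
theorem le_factorial_mul_pow {n c I : ℕ} (hI : I ≠ 0)
    (hprime : ∀ r : ℕ, r.Prime → r ∣ I → r ≤ n + 1)
    (hpart : ∀ r : ℕ, r.Prime → r ^ I.factorization r ≤ r ^ (n.factorial).factorization r * c) :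
    I ≤ n.factorial * c ^ Nat.primeCounting (n + 1) := by
  classical
  set S : Finset ℕ := (Finset.range (n + 2)).filter Nat.Prime with hS
  have hScard : S.card = Nat.primeCounting (n + 1) := by
    rw [Nat.primeCounting, Nat.primeCounting', Nat.count_eq_card_filter_range]
  have h1 : I = ∏ r ∈ I.primeFactors, r ^ I.factorization r := by
    conv_lhs => rw [← Nat.prod_factorization_pow_eq_self hI]
    rfl
  have hsub : I.primeFactors ⊆ S := by
    intro r hr
    have hr' := Nat.mem_primeFactors.mp hr
    rw [hS, Finset.mem_filter, Finset.mem_range]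
    exact ⟨by have := hprime r hr'.1 hr'.2.1; omega, hr'.1⟩
  have h2 : n.factorial = ∏ r ∈ S, r ^ (n.factorial).factorization r := by
    conv_lhs => rw [← Nat.prod_factorization_pow_eq_self (Nat.factorial_ne_zero n)]
    apply Finsupp.prod_of_support_subset
    · intro r hr
      rw [Nat.support_factorization] at hr
      have hr' := Nat.mem_primeFactors.mp hr
      rw [hS, Finset.mem_filter, Finset.mem_range]
      have := (Nat.Prime.dvd_factorial hr'.1).mp hr'.2.1
      exact ⟨by omega, hr'.1⟩
    · intro r _
      exact pow_zero r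
  calc I = ∏ r ∈ I.primeFactors, r ^ I.factorization r := h1
    _ ≤ ∏ r ∈ S, r ^ I.factorization r := by
        apply Finset.prod_le_prod_of_subset_of_one_le' hsub
        intro r hr _
        have : r.Prime := (Finset.mem_filter.mp hr).2
        exact Nat.one_le_pow _ _ this.pos
    _ ≤ ∏ r ∈ S, (r ^ (n.factorial).factorization r * c) := by
        apply Finset.prod_le_prod'
        intro r hr
        exact hpart r (Finset.mem_filter.mp hr).2
    _ = n.factorial * c ^ Nat.primeCounting (n + 1) := by
        rw [Finset.prod_mul_distrib, ← h2, Finset.prod_const, hScard]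

/-- The `p`-part of the index of `A`. -/
theorem pow_factorization_index_le {n c : ℕ} {G : Type u} [Group G] [Finite G]
    (hG : HasFaithful n G) (A : Subgroup G)
    (hA : ∀ H : Subgroup G, (∀ x ∈ H, ∀ y ∈ H, x * y = y * x) → (A.subgroupOf H).index ≤ c)
    (p : ℕ) (hp : p.Prime) :
    p ^ A.index.factorization p ≤ p ^ (n.factorial).factorization p * c := by
  classical
  have : Fact p.Prime := ⟨hp⟩
  let P : Sylow p G := default
  have hnil : Group.IsNilpotent (P : Subgroup G) := P.2.isNilpotent
  obtain ⟨B0, hB0c, hB0i⟩ := (hG.subgroup (P : Subgroup G)).exists_abelian_index_dvd_factorial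
  set B : Subgroup G := B0.map (P : Subgroup G).subtype with hB
  have hBP : B ≤ (P : Subgroup G) := map_subtype_le B0
  have hBc : ∀ x ∈ B, ∀ y ∈ B, x * y = y * x := by
    rintro _ ⟨x, hx, rfl⟩ _ ⟨y, hy, rfl⟩
    exact congrArg Subtype.val (hB0c x hx y hy)
  have h1 : A.relIndex B ≤ c := hA B hBc
  -- `p`-part of `A.index` divides `A.relIndex P`
  have h2 : A.index ∣ A.relIndex P * (P : Subgroup G).index := by
    rw [← inf_relIndex_right, relIndex_mul_index (inf_le_right : A ⊓ (P : Subgroup G) ≤ P),
      ← relIndex_mul_index (inf_le_left : A ⊓ (P : Subgroup G) ≤ A)]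
    exact Dvd.intro_left _ rfl
  have h3 : p ^ A.index.factorization p ∣ A.relIndex P := by
    have h4 : p ^ A.index.factorization p ∣ A.relIndex P * (P : Subgroup G).index :=
      (Nat.ordProj_dvd _ _).trans h2
    exact (Nat.Coprime.pow_left _
      ((Nat.Prime.coprime_iff_not_dvd hp).mpr P.not_dvd_index)).dvd_of_dvd_mul_right h4
  have h5 : A.relIndex P ∣ A.relIndex B * B.relIndex P := by
    rw [← inf_relIndex_right A B, relIndex_mul_relIndex _ _ _ inf_le_right hBP,
      ← inf_relIndex_right A P,
      ← relIndex_mul_relIndex (A ⊓ B) (A ⊓ P) P (inf_le_inf_left A hBP) inf_le_right]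
    exact Dvd.intro_left _ rfl
  have h6 : B.relIndex P = B0.index := by
    rw [hB, relIndex, subgroupOf, comap_map_eq_self_of_injective (P : Subgroup G).subtype_injective]
  have h7 : B0.index ∣ p ^ (n.factorial).factorization p := by
    obtain ⟨k, hk⟩ := IsPGroup.iff_card.mp P.2
    have h8 : B0.index ∣ p ^ k := hk ▸ index_dvd_card B0
    obtain ⟨j, _, hj⟩ := (Nat.dvd_prime_pow hp).mp h8
    rw [hj]
    apply pow_dvd_pow
    rw [hj] at hB0i
    exact (Nat.Prime.pow_dvd_iff_le_factorization hp (Nat.factorial_ne_zero n)).mp hB0i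
  have hpos : 0 < A.relIndex B * B.relIndex P := by
    apply Nat.mul_pos
    · exact Nat.pos_of_ne_zero (FiniteIndex.index_ne_zero (H := A.subgroupOf B))
    · exact Nat.pos_of_ne_zero (FiniteIndex.index_ne_zero (H := B.subgroupOf P))
  calc p ^ A.index.factorization p ≤ A.relIndex B * B.relIndex P :=
        Nat.le_of_dvd hpos (h3.trans h5)
    _ ≤ c * p ^ (n.factorial).factorization p := by
        apply Nat.mul_le_mul h1
        rw [h6]
        exact Nat.le_of_dvd (pow_pos hp.pos _) h7
    _ = _ := mul_comm _ _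

/-- Assembly: if `A` is normal and every abelian subgroup `H` has `|H : H ∩ A| ≤ c`, then
`|G : A| ≤ n! * c ^ (π(n+1) + 1)`. -/
theorem HasFaithful.index_le {n c : ℕ} {G : Type u} [Group G] [Finite G]
    (hG : HasFaithful n G) (A : Subgroup G) [A.Normal]
    (hA : ∀ H : Subgroup G, (∀ x ∈ H, ∀ y ∈ H, x * y = y * x) → (A.subgroupOf H).index ≤ c) :
    A.index ≤ n.factorial * c ^ (Nat.primeCounting (n + 1) + 1) := by
  classical
  obtain ⟨H, hHc, -, hHi⟩ := hG.exists_hall
  have h1 : A.relIndex H ≤ c := hA H hHc
  have h2 : A.index = A.relIndex H * (H ⊔ A).index := by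
    rw [← relIndex_sup_right H A, relIndex_mul_index le_sup_right]
  set I : ℕ := (H ⊔ A).index with hI
  have hI0 : I ≠ 0 := FiniteIndex.index_ne_zero
  have hA0 : A.index ≠ 0 := FiniteIndex.index_ne_zero
  have hIA : I ∣ A.index := index_dvd_of_le le_sup_right
  have h3 : I ≤ n.factorial * c ^ Nat.primeCounting (n + 1) := by
    apply le_factorial_mul_pow hI0
    · intro r hr hrd
      exact hHi r hr (hrd.trans (index_dvd_of_le le_sup_left))
    · intro r hr
      refine le_trans ?_ (pow_factorization_index_le hG A hA r hr)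
      apply Nat.pow_le_pow_right hr.pos
      exact (Nat.factorization_le_iff_dvd hI0 hA0).mpr hIA r
  calc A.index = A.relIndex H * I := h2
    _ ≤ c * (n.factorial * c ^ Nat.primeCounting (n + 1)) := Nat.mul_le_mul h1 h3
    _ = n.factorial * c ^ (Nat.primeCounting (n + 1) + 1) := by ring

end Cfsg.Agent.Lib.Helper35
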