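import Mathlib
import Cfsg.Prelude.Def_Blocks
import Cfsg.Agent.Lib.Helper16.Transport
import Cfsg.Agent.Lib.Helper16.DefectAPI

/-!
# Transport of blocks, defect classes and defect groups along a group isomorphism
-/

set_option autoImplicit false
set_option linter.unusedSectionVars false

namespace Cfsg.Agent.Lib.Helper35

open Cfsg Cfsg.Agent.Lib.Helper78 Cfsg.Agent.Lib.Helper74
open Cfsg.Agent.Lib.Helper16 (irrCongr irrCongr_apply)
open scoped ComplexConjugate

section iso

variable {A B : Type*} [Group A] [Group B] [Fintype A] [Fintype B] (φ : A ≃* B)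
variable {M : Ideal AlgInt}

/-- transport of a set of irreducible characters of `B` to `A` along `φ : A ≃* B` -/
def tr (b : Set (IrrCharacter B)) : Set (IrrCharacter A) := {ξ | (irrCongr φ).symm ξ ∈ b}

theorem irrCongr_mem_tr {b : Set (IrrCharacter B)} {χ : IrrCharacter B} :
    irrCongr φ χ ∈ tr φ b ↔ χ ∈ b := by
  unfold tr
  show (irrCongr φ).symm (irrCongr φ χ) ∈ b ↔ χ ∈ b
  rw [Equiv.symm_apply_apply]

theorem mem_tr_iff {b : Set (IrrCharacter B)} {ξ : IrrCharacter A} :
    ξ ∈ tr φ b ↔ ∃ χ ∈ b, ξ = irrCongr φ χ := by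
  constructor
  · intro h
    exact ⟨_, h, (Equiv.apply_symm_apply _ _).symm⟩
  · rintro ⟨χ, hχ, rfl⟩
    exact (irrCongr_mem_tr φ).mpr hχ

omit [Fintype A] [Fintype B] in
theorem centralizer_map_equiv (a : A) :
    Subgroup.centralizer ({φ a} : Set B) =
      (Subgroup.centralizer ({a} : Set A)).map φ.toMonoidHom := by
  ext x
  rw [Subgroup.mem_map_equiv, Subgroup.mem_centralizer_singleton_iff,
    Subgroup.mem_centralizer_singleton_iff]
  constructor
  · intro h
    apply φ.injective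
    simpa using h
  · intro h
    have := congrArg φ h
    simpa using this

omit [Fintype A] [Fintype B] in
theorem centralChar_comp_equiv (χ : B → ℂ) (a : A) :
    centralChar (χ ∘ φ) a = centralChar χ (φ a) := by
  unfold centralChar
  rw [centralizer_map_equiv]
  have : (Subgroup.map φ.toMonoidHom (Subgroup.centralizer ({a} : Set A))).index =
      (Subgroup.centralizer ({a} : Set A)).index := Subgroup.index_map_equiv _ φ
  rw [this]
  simp

theorem sameBlock_irrCongr (hM : M.IsMaximal) (χ ψ : IrrCharacter B) :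
    SameBlock M (irrCongr φ χ : A → ℂ) (irrCongr φ ψ : A → ℂ) ↔
      SameBlock M (χ : B → ℂ) (ψ : B → ℂ) :=
  Cfsg.Agent.Lib.Helper16.sameBlock_irrCongr_iff φ M χ ψ

theorem tr_blockOf (hM : M.IsMaximal) (χ : IrrCharacter B) :
    tr φ (blockOf M (χ : B → ℂ)) = blockOf M (irrCongr φ χ : A → ℂ) := by
  ext ξ
  obtain ⟨ψ, rfl⟩ := (irrCongr φ).surjective ξ
  rw [irrCongr_mem_tr]
  exact (sameBlock_irrCongr φ hM χ ψ).symm

theorem isPBlock_tr (hM : M.IsMaximal) {b : Set (IrrCharacter B)} (hb : IsPBlock M b) :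
    IsPBlock M (tr φ b) := by
  obtain ⟨χ, rfl⟩ := hb
  exact ⟨irrCongr φ χ, tr_blockOf φ hM χ⟩

theorem blockCoeff_tr (b : Set (IrrCharacter B)) (a : A) :
    blockCoeff (tr φ b) a = blockCoeff b (φ a) := by
  classical
  rw [blockCoeff_eq_sum, blockCoeff_eq_sum, Fintype.card_congr φ.toEquiv]
  congr 1
  rw [← Equiv.sum_comp (irrCongr φ)]
  apply Finset.sum_congr rfl
  intro χ _
  simp only [irrCongr_mem_tr, irrCongr_apply, map_one]

theorem isDefectClass_tr {b : Set (IrrCharacter B)} {a : A} :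
    IsDefectClass M (tr φ b) a ↔ IsDefectClass M b (φ a) := by
  unfold IsDefectClass
  rw [blockCoeff_tr]
  constructor
  · rintro ⟨h1, h2, h3⟩
    refine ⟨h1, h2, fun χ hχ => ?_⟩
    have := h3 (irrCongr φ χ) ((irrCongr_mem_tr φ).mpr hχ)
    rwa [show ((irrCongr φ χ : IrrCharacter A) : A → ℂ) = (χ : B → ℂ) ∘ φ from rfl,
      centralChar_comp_equiv] at this
  · rintro ⟨h1, h2, h3⟩
    refine ⟨h1, h2, fun ξ hξ => ?_⟩
    obtain ⟨χ, hχ, rfl⟩ := (mem_tr_iff φ).mp hξ
    rw [show ((irrCongr φ χ : IrrCharacter A) : A → ℂ) = (χ : B → ℂ) ∘ φ from rfl,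
      centralChar_comp_equiv]
    exact h3 χ hχ

theorem isDefectGroup_tr {p : ℕ} [Fact p.Prime] {b : Set (IrrCharacter B)} {D : Subgroup B}
    (h : IsDefectGroup p M b D) : IsDefectGroup p M (tr φ b) (D.comap φ.toMonoidHom) := by
  rw [Cfsg.Agent.Lib.Helper16.isDefectGroup_iff] at h ⊢
  obtain ⟨g, hg, hle, hcard⟩ := h
  obtain ⟨a, rfl⟩ := φ.surjective g
  refine ⟨a, (isDefectClass_tr φ).mpr hg, ?_, ?_⟩
  · intro x hx
    have h1 := hle (show φ x ∈ D from hx)
    rw [centralizer_map_equiv, Subgroup.mem_map_equiv] at h1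
    simpa using h1
  · rw [centralizer_map_equiv, Subgroup.card_map_of_injective φ.injective] at hcard
    rw [← hcard]
    have h2 : D = (D.comap φ.toMonoidHom).map φ.toMonoidHom :=
      (Subgroup.map_comap_eq_self_of_surjective φ.surjective D).symm
    conv_rhs => rw [h2]
    exact (Subgroup.card_map_of_injective φ.injective).symm

end iso

end Cfsg.Agent.Lib.Helper35
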