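import Mathlib

set_option autoImplicit false

namespace Cfsg.Agent.Lib.Helper35

universe u v w

open Subgroup

/-- A quotient of a finite abelian group embeds in the group. -/
theorem exists_injective_of_quotient {B : Type u} [CommGroup B] [Finite B] (K : Subgroup B) :
    ∃ g : (B ⧸ K) →* B, Function.Injective g := by
  have hne : NeZero (Monoid.exponent B) := ⟨Monoid.exponent_ne_zero_of_finite⟩
  have h1 : HasEnoughRootsOfUnity ℂ (Monoid.exponent B) := inferInstance
  have h2 : HasEnoughRootsOfUnity ℂ (Monoid.exponent (B ⧸ K)) :=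
    h1.of_dvd ℂ (Group.exponent_quotient_dvd K)
  obtain ⟨e1⟩ := CommGroup.monoidHom_mulEquiv_of_hasEnoughRootsOfUnity B ℂ
  obtain ⟨e2⟩ := CommGroup.monoidHom_mulEquiv_of_hasEnoughRootsOfUnity (B ⧸ K) ℂ
  let c : ((B ⧸ K) →* ℂˣ) →* (B →* ℂˣ) :=
    { toFun := fun χ => χ.comp (QuotientGroup.mk' K)
      map_one' := rfl
      map_mul' := fun _ _ => rfl }
  have hc : Function.Injective c := by
    intro χ ψ h
    ext x
    exact congrArg Units.val (DFunLike.congr_fun h x)
  exact ⟨(e1.toMonoidHom.comp c).comp e2.symm.toMonoidHom,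
    (e1.injective.comp hc).comp e2.symm.injective⟩

/-- A homomorphic image of a finite abelian group embeds in the group. -/
theorem exists_injective_of_surjective {B : Type u} [CommGroup B] [Finite B] {D : Type v} [Group D]
    (f : B →* D) (hf : Function.Surjective f) : ∃ g : D →* B, Function.Injective g := by
  obtain ⟨g, hg⟩ := exists_injective_of_quotient f.ker
  let e := QuotientGroup.quotientKerEquivOfSurjective f hf
  exact ⟨g.comp e.symm.toMonoidHom, hg.comp e.symm.injective⟩

end Cfsg.Agent.Lib.Helper35
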