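import Mathlib
import Cfsg.Prelude.Def_Blocks
import Cfsg.Prelude.Def_BlockLocal
import Cfsg.Agent.Lib.Helper35.BlockIso
import Cfsg.Agent.Lib.Helper35.BlockFong

/-!
# Towards the Harris–Knörr correspondence, part 1: the relation between blocks of `H ∩ N` and of `N`
-/

set_option autoImplicit false
set_option linter.unusedSectionVars false

namespace Cfsg.Agent.Lib.Helper35

open Cfsg Cfsg.Agent.Lib.Helper15 Cfsg.Agent.Lib.Helper78 Cfsg.Agent.Lib.Helper74
open Cfsg.Agent.Lib.Helper16 (irrCongr irrCongr_apply)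
open scoped ComplexConjugate

section hk

variable {G : Type*} [Group G] [Fintype G] (N : Subgroup G) [hN : N.Normal] [Fintype N]
variable (H : Subgroup G) [Fintype H] [Fintype (N.subgroupOf H)] [Fintype (H.subgroupOf N)]
variable {M : Ideal AlgInt}

/-- the two incarnations of `H ∩ N` -/
def kap : N.subgroupOf H ≃* H.subgroupOf N where
  toFun x := ⟨⟨((x : H) : G), x.2⟩, (x : H).2⟩
  invFun y := ⟨⟨((y : N) : G), y.2⟩, (y : N).2⟩
  left_inv _ := rfl
  right_inv _ := rfl
  map_mul' _ _ := rfl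

/-- the inclusion of `H ∩ N` (inside `H`) into `N` -/
def jn (x : N.subgroupOf H) : N := ⟨((x : H) : G), x.2⟩

/-- `ξ'` and `θ` have congruent central characters on the class functions of `N` -/
def Rel (M : Ideal AlgInt) (ξ' : N.subgroupOf H → ℂ) (θ : N → ℂ) : Prop :=
  ∀ a : N → ℂ, IsClassFunction N a → (∀ n, MemLocalRing M (a n)) →
    MemLocalIdeal M (omega ξ' (fun x : N.subgroupOf H => a (jn N H x)) - omega θ a)

theorem Rel.congr_right (hM : M.IsPrime) {ξ' : N.subgroupOf H → ℂ} {θ θ₂ : IrrCharacter N}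
    (h : Rel N H M ξ' θ) (h2 : SameBlock M (θ : N → ℂ) (θ₂ : N → ℂ)) : Rel N H M ξ' θ₂ := by
  intro a ha ha'
  have h3 := MemLocalIdeal.add hM (h a ha ha') (memLocalIdeal_omega_sub hM h2 ha ha')
  convert h3 using 1
  ring

theorem Rel.congr_left (hM : M.IsPrime) {ξ' ξ₂' : IrrCharacter (N.subgroupOf H)} {θ : N → ℂ}
    (h : Rel N H M ξ' θ) (h2 : SameBlock M (ξ' : N.subgroupOf H → ℂ) (ξ₂' : N.subgroupOf H → ℂ)) :
    Rel N H M ξ₂' θ := by
  intro a ha ha'
  have hcl : IsClassFunction (N.subgroupOf H) (fun x : N.subgroupOf H => a (jn N H x)) := by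
    intro g k
    exact ha (jn N H g) (jn N H k)
  have h3 := MemLocalIdeal.sub hM (h a ha ha')
    (memLocalIdeal_omega_sub hM h2 hcl (fun x => ha' _))
  convert h3 using 1
  ring

/-- **(A)** if `c` covers `e'`, `c` induces `B` and `e'` is related to `d`, then `B` covers `d`. -/
theorem covers_of_rel (hM : M.IsPrime) {c : Set (IrrCharacter H)} {B : Set (IrrCharacter G)}
    (hind : IsInducedBlock M H c B) {e' : Set (IrrCharacter (N.subgroupOf H))}
    (he' : IsPBlock M e') (hcov : Covers (N.subgroupOf H) c e') {d : Set (IrrCharacter N)}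
    (hd : IsPBlock M d) (hrel : ∀ ξ' ∈ e', ∀ θ ∈ d, Rel N H M (ξ' : N.subgroupOf H → ℂ) θ) :
    Covers N B d := by
  classical
  obtain ⟨hc, hB, hi⟩ := hind
  rw [covers_iff N hM hB hd]
  intro χ hχ θ hθ n
  obtain ⟨ψ, hψ⟩ := IsPBlock.nonempty hM hc
  obtain ⟨ξ', hξ'⟩ := IsPBlock.nonempty hM he'
  set a : G → ℂ := classInd (n : G) with ha
  have h1 := hi ψ hψ χ hχ (n : G)
  rw [inducedCentralChar_eq_omega] at h1
  have h2 := memLocalIdeal_omega_sub_restrict (N.subgroupOf H) hM (irr_isClassFunction ψ)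
    (ξ' : N.subgroupOf H → ℂ)
    (fun x => Covers.memLocalIdeal (N.subgroupOf H) hM hc he' hcov ψ hψ ξ' hξ' x)
    (a := fun h : H => a (h : G))
    (fun g k => classInd_isClassFunction (n : G) (g : G) (k : G))
    (fun h => memLocalRing_classInd hM _ _)
    (fun h hh => classInd_eq_zero_of_not_mem N n hh)
  have h3 := hrel ξ' hξ' θ hθ (fun m : N => a (m : G))
    (fun g k => classInd_isClassFunction (n : G) (g : G) (k : G))
    (fun m => memLocalRing_classInd hM _ _)
  rw [inducedCentralChar_eq_omega]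
  have h4 := MemLocalIdeal.add hM (MemLocalIdeal.add hM (MemLocalIdeal.neg h1) h2) h3
  convert h4 using 1
  simp only [jn]
  ring

omit [Fintype G] in
theorem omega_cj (g : G) (θ : N → ℂ) (a : N → ℂ) :
    omega (cj N g θ) a =
      omega θ (fun n : N => a ⟨g⁻¹ * n * g, by simpa using hN.conj_mem n n.2 g⁻¹⟩) := by
  unfold omega
  rw [cj_apply_one]
  congr 1
  apply Fintype.sum_equiv (MulAut.conjNormal g : N ≃* N).toEquiv
  intro n
  rw [cj_apply]
  congr 2
  apply Subtype.ext
  simp [mul_assoc]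

/-- the relation is compatible with conjugation by elements of `H` -/
theorem Rel.cj {ξ' : N.subgroupOf H → ℂ} {θ : N → ℂ} (h : Rel N H M ξ' θ) (k : H) :
    Rel N H M (Cfsg.Agent.Lib.Helper15.cj (N.subgroupOf H) k ξ')
      (Cfsg.Agent.Lib.Helper15.cj N (k : G) θ) := by
  intro a ha ha'
  rw [omega_cj, omega_cj]
  exact h (fun n : N => a ⟨(k : G)⁻¹ * n * k, by simpa using hN.conj_mem n n.2 (k : G)⁻¹⟩)
    (by
      intro n m
      have := ha ⟨(k : G)⁻¹ * n * k, by simpa using hN.conj_mem n n.2 (k : G)⁻¹⟩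
        ⟨(k : G)⁻¹ * m * k, by simpa using hN.conj_mem m m.2 (k : G)⁻¹⟩
      simp only
      rw [← this]
      congr 1
      apply Subtype.ext
      simp only [Subgroup.coe_mul, InvMemClass.coe_inv]
      group)
    (fun n => ha' _)

omit hN [Fintype N] [Fintype H] [Fintype (N.subgroupOf H)] [Fintype (H.subgroupOf N)] in
/-- induced blocks and class functions -/
theorem IsInducedBlock.memLocalIdeal_omega (hM : M.IsPrime) {K : Subgroup G} [Fintype K]
    {c : Set (IrrCharacter K)} {B : Set (IrrCharacter G)} (hind : IsInducedBlock M K c B)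
    {ψ : IrrCharacter K} (hψ : ψ ∈ c) {χ : IrrCharacter G} (hχ : χ ∈ B) {a : G → ℂ}
    (ha : IsClassFunction G a) (ha' : ∀ g, MemLocalRing M (a g)) :
    MemLocalIdeal M (omega (ψ : K → ℂ) (fun k : K => a k) - omega (χ : G → ℂ) a) := by
  classical
  have h1 := omega_sub_omega_restrict K (irr_isClassFunction χ) (ψ : K → ℂ) ha
  have h2 : MemLocalIdeal M (omega (χ : G → ℂ) a - omega (ψ : K → ℂ) (fun k : K => a k)) := by
    rw [h1]
    apply MemLocalIdeal.sum hM
    intro C _
    apply MemLocalIdeal.mul_left hM (ha' _)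
    have := MemLocalIdeal.neg (hind.2.2 ψ hψ χ hχ (Quotient.out C))
    convert this using 1
    ring
  have := MemLocalIdeal.neg h2
  convert this using 1
  ring

theorem omega_irrCongr_kap (ξ' : IrrCharacter (N.subgroupOf H)) (a : N → ℂ) :
    omega (irrCongr (kap N H).symm ξ' : H.subgroupOf N → ℂ) (fun y : H.subgroupOf N => a y) =
      omega (ξ' : N.subgroupOf H → ℂ) (fun x : N.subgroupOf H => a (jn N H x)) :=
  Cfsg.Agent.Lib.Helper16.omega_comp_equiv (kap N H).symm (ξ' : N.subgroupOf H → ℂ)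
    (fun x : N.subgroupOf H => a (jn N H x))

theorem rel_of_isInducedBlock (hM : M.IsPrime) {e' : Set (IrrCharacter (N.subgroupOf H))}
    {d : Set (IrrCharacter N)}
    (hind : IsInducedBlock M (H.subgroupOf N) (tr (kap N H).symm e') d) :
    ∀ ξ' ∈ e', ∀ θ ∈ d, Rel N H M (ξ' : N.subgroupOf H → ℂ) θ := by
  intro ξ' hξ' θ hθ a ha ha'
  rw [← omega_irrCongr_kap]
  exact IsInducedBlock.memLocalIdeal_omega hM hind ((irrCongr_mem_tr _).mpr hξ') hθ ha ha'

theorem isInducedBlock_of_rel (hM : M.IsMaximal) {e' : Set (IrrCharacter (N.subgroupOf H))}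
    (he' : IsPBlock M e') {d : Set (IrrCharacter N)} (hd : IsPBlock M d)
    {ξ' : IrrCharacter (N.subgroupOf H)} (hξ' : ξ' ∈ e') {θ : IrrCharacter N} (hθ : θ ∈ d)
    (h : Rel N H M (ξ' : N.subgroupOf H → ℂ) θ) :
    IsInducedBlock M (H.subgroupOf N) (tr (kap N H).symm e') d := by
  have hMp := hM.isPrime
  refine ⟨isPBlock_tr _ hM he', hd, ?_⟩
  intro ξ'' hξ'' θ₂ hθ₂ n
  obtain ⟨ξ₂', hξ₂', rfl⟩ := (mem_tr_iff _).mp hξ''
  have h1 := (h.congr_left N H hMp (IsPBlock.sameBlock hMp he' hξ' hξ₂')).congr_right N H hMp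
    (IsPBlock.sameBlock hMp hd hθ hθ₂)
  have h2 := h1 (classInd n) (classInd_isClassFunction n) (fun m => memLocalRing_classInd hMp _ _)
  rw [← omega_irrCongr_kap, omega_classInd (irr_isClassFunction θ₂)] at h2
  rw [inducedCentralChar_eq_omega]
  exact h2

end hk

end Cfsg.Agent.Lib.Helper35
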