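import Mathlib
import Cfsg.Prelude.Def_Blocks
import Cfsg.Prelude.Def_BlockLocal
import Cfsg.Agent.Lib.Helper35.HarrisKnorr1
import Cfsg.Agent.Lib.Helper16.FirstMain
import Cfsg.Agent.S0919

/-!
# Towards the Harris–Knörr correspondence, part 2: the first main theorem inside `N`
-/

set_option autoImplicit false
set_option linter.unusedSectionVars false

namespace Cfsg.Agent.Lib.Helper35

open Cfsg Cfsg.Agent.Lib.Helper15 Cfsg.Agent.Lib.Helper78 Cfsg.Agent.Lib.Helper74
open Cfsg.Agent.Lib.Helper16 (irrCongr irrCongr_apply)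
open scoped ComplexConjugate

local notation "cjS" => Cfsg.Agent.Lib.Helper16.cj

section grp

variable {G : Type*} [Group G]

/-- the normalizer of `Q.subgroupOf K` in `K`, for `Q ≤ K` -/
theorem mem_normalizer_subgroupOf_iff {Q K : Subgroup G} (hQK : Q ≤ K) (y : K) :
    y ∈ Subgroup.normalizer ((Q.subgroupOf K : Subgroup K) : Set K) ↔
      (y : G) ∈ Subgroup.normalizer (Q : Set G) := by
  rw [Subgroup.mem_normalizer_iff, Subgroup.mem_normalizer_iff]
  constructor
  · intro h g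
    constructor
    · intro hg
      exact (h ⟨g, hQK hg⟩).mp hg
    · intro hg
      have hgK : g ∈ K := by
        have h1 : (y : G)⁻¹ * ((y : G) * g * (y : G)⁻¹) * (y : G) ∈ K :=
          K.mul_mem (K.mul_mem (K.inv_mem y.2) (hQK hg)) y.2
        simpa [mul_assoc] using h1
      exact (h ⟨g, hgK⟩).mpr hg
  · intro h z
    exact h (z : G)

end grp

section hk

variable {G : Type*} [Group G] [Fintype G] (N : Subgroup G) [hN : N.Normal] [Fintype N]
variable (H : Subgroup G) [Fintype H] [Fintype (N.subgroupOf H)] [Fintype (H.subgroupOf N)]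
variable {M : Ideal AlgInt} {p : ℕ} [Fact p.Prime]
variable {Q : Subgroup G}

omit [Fintype G] hN [Fintype N] [Fintype H] [Fintype (N.subgroupOf H)]
  [Fintype (H.subgroupOf N)] in
theorem subgroupOf_le_normalizer (hQN : Q ≤ N) (hHN : H ≤ Subgroup.normalizer (Q : Set G)) :
    H.subgroupOf N ≤ Subgroup.normalizer ((Q.subgroupOf N : Subgroup N) : Set N) := by
  intro y hy
  rw [mem_normalizer_subgroupOf_iff hQN]
  exact hHN hy

omit [Fintype G] hN [Fintype N] [Fintype H] [Fintype (N.subgroupOf H)]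
  [Fintype (H.subgroupOf N)] in
theorem normalizer_le_subgroupOf (hQN : Q ≤ N) (hNH : Subgroup.normalizer (Q : Set G) ≤ H) :
    Subgroup.normalizer ((Q.subgroupOf N : Subgroup N) : Set N) ≤ H.subgroupOf N := by
  intro y hy
  rw [mem_normalizer_subgroupOf_iff hQN] at hy
  exact hNH hy

theorem tr_injective {A B : Type*} [Group A] [Group B] [Fintype A] [Fintype B] (φ : A ≃* B)
    {b₁ b₂ : Set (IrrCharacter B)} (h : tr φ b₁ = tr φ b₂) : b₁ = b₂ := by
  ext χ
  rw [← irrCongr_mem_tr φ, h, irrCongr_mem_tr]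

/-- **(U')** uniqueness in the first main theorem for `N`, in terms of `Rel`. -/
theorem eq_of_rel (hM : IsPModular p M) (hQp : IsPGroup p Q) (hQN : Q ≤ N)
    (hHN : H ≤ Subgroup.normalizer (Q : Set G)) (hNH : Subgroup.normalizer (Q : Set G) ≤ H)
    {e₁' e₂' : Set (IrrCharacter (N.subgroupOf H))} (he₁' : IsPBlock M e₁')
    (he₂' : IsPBlock M e₂') {d : Set (IrrCharacter N)} (hd : IsPBlock M d)
    (h₁ : ∃ ξ' ∈ e₁', ∃ θ ∈ d, Rel N H M (ξ' : N.subgroupOf H → ℂ) (θ : N → ℂ))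
    (h₂ : ∃ ξ' ∈ e₂', ∃ θ ∈ d, Rel N H M (ξ' : N.subgroupOf H → ℂ) (θ : N → ℂ))
    (hdef : IsDefectGroup p M e₁' ((Q.subgroupOf H).subgroupOf (N.subgroupOf H))) :
    e₁' = e₂' := by
  haveI : M.IsMaximal := hM.2.1
  haveI : CharP (Cfsg.Agent.Lib.Helper16.FM M) p := Cfsg.Agent.Lib.Helper16.charP_FM hM
  obtain ⟨ξ₁, hξ₁, θ₁, hθ₁, hr₁⟩ := h₁
  obtain ⟨ξ₂, hξ₂, θ₂, hθ₂, hr₂⟩ := h₂
  have hi₁ := isInducedBlock_of_rel N H hM.2.1 he₁' hd hξ₁ hθ₁ hr₁
  have hi₂ := isInducedBlock_of_rel N H hM.2.1 he₂' hd hξ₂ hθ₂ hr₂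
  have hDb : IsDefectGroup p M (tr (kap N H).symm e₁')
      ((Q.subgroupOf N).subgroupOf (H.subgroupOf N)) := isDefectGroup_tr (kap N H).symm hdef
  exact tr_injective _ (Cfsg.Agent.Lib.Helper16.eq_of_induced_of_defect M p (H.subgroupOf N) hM
    (D := Q.subgroupOf N) hQp.comap_subtype (subgroupOf_le_normalizer N H hQN hHN)
    (normalizer_le_subgroupOf N H hQN hNH) hi₁ hi₂ hDb)

/-- **(L4')** every block of `H ∩ N = N_N(Q)` induces a block of `N`. -/
theorem exists_rel (hM : IsPModular p M) (hQp : IsPGroup p Q) (hQN : Q ≤ N)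
    (hHN : H ≤ Subgroup.normalizer (Q : Set G)) (hNH : Subgroup.normalizer (Q : Set G) ≤ H)
    {e' : Set (IrrCharacter (N.subgroupOf H))} (he' : IsPBlock M e') :
    ∃ d : Set (IrrCharacter N), IsInducedBlock M (H.subgroupOf N) (tr (kap N H).symm e') d := by
  have h1 := normalizer_le_subgroupOf N H hQN hNH
  exact Cfsg.Agent.S0919.result p M hM (Q.subgroupOf N) (H.subgroupOf N) hQp.comap_subtype
    (Subgroup.le_normalizer.trans h1) ((Subgroup.centralizer_le_normalizer _).trans h1)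
    (subgroupOf_le_normalizer N H hQN hHN) _ (isPBlock_tr _ hM.2.1 he')

/-- **(L5')** `Q` is contained in a defect group of the induced block. -/
theorem exists_defect_ge (hM : IsPModular p M) (hQp : IsPGroup p Q) (hQN : Q ≤ N)
    (hHN : H ≤ Subgroup.normalizer (Q : Set G)) (hNH : Subgroup.normalizer (Q : Set G) ≤ H)
    {e' : Set (IrrCharacter (N.subgroupOf H))} {d : Set (IrrCharacter N)}
    (hind : IsInducedBlock M (H.subgroupOf N) (tr (kap N H).symm e') d) :
    ∃ E : Subgroup N, IsDefectGroup p M d E ∧ Q.subgroupOf N ≤ E := by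
  haveI : M.IsMaximal := hM.2.1
  haveI : CharP (Cfsg.Agent.Lib.Helper16.FM M) p := Cfsg.Agent.Lib.Helper16.charP_FM hM
  have h1 := normalizer_le_subgroupOf N H hQN hNH
  have hQL : Q.subgroupOf N ≤ H.subgroupOf N := Subgroup.le_normalizer.trans h1
  obtain ⟨R, hR⟩ := Cfsg.Agent.Lib.Helper16.exists_isDefectGroup hM hind.1
  have h2 := Cfsg.Agent.Lib.Helper16.subgroupOf_le_defect M p (H.subgroupOf N) hM
    (D := Q.subgroupOf N) hQp.comap_subtype hQL (subgroupOf_le_normalizer N H hQN hHN) hind.1 hR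
  obtain ⟨E, hE, hRE⟩ := Cfsg.Agent.S0917.result p M hM (H.subgroupOf N) _ hind.1 d hind.2.1 hind
    R hR
  refine ⟨E, hE, ?_⟩
  rw [← Subgroup.map_subgroupOf_eq_of_le hQL]
  exact (Subgroup.map_mono h2).trans hRE

end hk

end Cfsg.Agent.Lib.Helper35
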