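import Mathlib
import Cfsg.Prelude.Def_Blocks
import Cfsg.Agent.Lib.Helper35.BlockIso
import Cfsg.Agent.Lib.Helper35.HarrisKnorr2
import Cfsg.Agent.Lib.Helper16.FirstMain
import Cfsg.Agent.Lib.Helper16.Transport

/-!
# The first main theorem for subgroups `H ≥ N_G(D)`
-/

set_option autoImplicit false
set_option linter.unusedSectionVars false
set_option linter.style.haveILetI false

namespace Cfsg.Agent.Lib.Helper35

open Cfsg Cfsg.Agent.Lib.Helper78 Cfsg.Agent.Lib.Helper74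
open Cfsg.Agent.Lib.Helper16 (irrCongr irrCongr_apply lam resZ FM Zc)
open scoped ComplexConjugate

local notation "cjS" => Cfsg.Agent.Lib.Helper16.cj

section ext

variable {G : Type*} [Group G] [Fintype G] (H : Subgroup G) [Fintype H]
variable {M : Ideal AlgInt} {p : ℕ} [Fact p.Prime]

/-- the induced block is unique -/
theorem IsInducedBlock.unique (hM : M.IsPrime) {c : Set (IrrCharacter H)}
    {B₁ B₂ : Set (IrrCharacter G)} (h₁ : IsInducedBlock M H c B₁) (h₂ : IsInducedBlock M H c B₂) :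
    B₁ = B₂ := by
  obtain ⟨ψ, hψ⟩ := IsPBlock.nonempty hM h₁.1
  obtain ⟨χ₁, hχ₁⟩ := IsPBlock.nonempty hM h₁.2.1
  obtain ⟨χ₂, hχ₂⟩ := IsPBlock.nonempty hM h₂.2.1
  apply IsPBlock.eq_of_mem_mem hM h₁.2.1 h₂.2.1 hχ₁
  apply IsPBlock.mem_of_sameBlock hM h₂.2.1 hχ₂
  intro g
  have h3 := MemLocalIdeal.sub hM (h₁.2.2 ψ hψ χ₁ hχ₁ g) (h₂.2.2 ψ hψ χ₂ hχ₂ g)
  convert h3 using 1
  ring

variable (K : Subgroup G) [Fintype K] [Fintype (K.subgroupOf H)]

/-- transitivity of block induction -/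
theorem IsInducedBlock.trans (hM : IsPModular p M) (hKH : K ≤ H)
    {β' : Set (IrrCharacter (K.subgroupOf H))} {c : Set (IrrCharacter H)}
    {B : Set (IrrCharacter G)} (h₁ : IsInducedBlock M (K.subgroupOf H) β' c)
    (h₂ : IsInducedBlock M H c B) :
    IsInducedBlock M K (tr (Subgroup.subgroupOfEquivOfLe hKH).symm β') B := by
  haveI : M.IsMaximal := hM.2.1
  haveI : CharP (FM M) p := Cfsg.Agent.Lib.Helper16.charP_FM hM
  have hMp := pmod_isPrime hM
  obtain ⟨η', hη'⟩ := IsPBlock.nonempty hMp h₁.1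
  obtain ⟨ψ, hψ⟩ := IsPBlock.nonempty hMp h₁.2.1
  obtain ⟨χ, hχ⟩ := IsPBlock.nonempty hMp h₂.2.1
  have e₁ := (Cfsg.Agent.Lib.Helper16.isInducedBlock_iff M (K.subgroupOf H) h₁.1 h₁.2.1 hη' hψ).1 h₁
  have e₂ := (Cfsg.Agent.Lib.Helper16.isInducedBlock_iff M H h₂.1 h₂.2.1 hψ hχ).1 h₂
  set φ := (Subgroup.subgroupOfEquivOfLe hKH).symm with hφ
  rw [Cfsg.Agent.Lib.Helper16.isInducedBlock_iff M K (isPBlock_tr φ hM.2.1 h₁.1) h₂.2.1
    ((irrCongr_mem_tr φ).mpr hη') hχ]
  intro z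
  have h3 := Cfsg.Agent.Lib.Helper16.lam_downIrr hKH M (irrCongr φ η') z
  have h4 : Cfsg.Agent.Lib.Helper16.downIrr hKH (irrCongr φ η') = η' := by
    apply Subtype.ext
    funext x
    rfl
  rw [h4] at h3
  rw [← h3, e₁, e₂]

/-- descent of a block of `H` with defect group `D` to `K = N_G(D) ≤ H` -/
theorem exists_block_normalizer (hM : IsPModular p M) {D : Subgroup G} (hDH : D ≤ H)
    (hKN : K ≤ Subgroup.normalizer (D : Set G)) (hNK : Subgroup.normalizer (D : Set G) ≤ K)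
    (hKH : K ≤ H) {c : Set (IrrCharacter H)} (hc : IsPBlock M c)
    (hcD : IsDefectGroup p M c (D.subgroupOf H)) :
    ∃ β' : Set (IrrCharacter (K.subgroupOf H)), IsInducedBlock M (K.subgroupOf H) β' c ∧
      IsDefectGroup p M (tr (Subgroup.subgroupOfEquivOfLe hKH).symm β') (D.subgroupOf K) := by
  haveI : M.IsMaximal := hM.2.1
  haveI : CharP (FM M) p := Cfsg.Agent.Lib.Helper16.charP_FM hM
  have hDp : IsPGroup p (D.subgroupOf H) := Cfsg.Agent.Lib.Helper16.IsDefectGroup.isPGroup hcD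
  have hN' : Subgroup.normalizer ((D.subgroupOf H : Subgroup H) : Set H) ≤ K.subgroupOf H := by
    intro y hy
    rw [mem_normalizer_subgroupOf_iff hDH] at hy
    exact hNK hy
  have hK' : K.subgroupOf H ≤ Subgroup.normalizer ((D.subgroupOf H : Subgroup H) : Set H) := by
    intro y hy
    rw [mem_normalizer_subgroupOf_iff hDH]
    exact hKN hy
  obtain ⟨β', hβ'⟩ := Cfsg.Agent.Lib.Helper16.exists_induced_of_le_defect M p (K.subgroupOf H) hM
    hDp (Subgroup.le_normalizer.trans hN') ((Subgroup.centralizer_le_normalizer _).trans hN') hK'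
    hc hcD le_rfl
  refine ⟨β', hβ', ?_⟩
  have h1 := Cfsg.Agent.Lib.Helper16.isDefectGroup_subgroupOf_of_induced M p (K.subgroupOf H) hM
    (Subgroup.le_normalizer.trans hN') hK' hβ' hcD
  exact isDefectGroup_tr (Subgroup.subgroupOfEquivOfLe hKH).symm h1

/-- If `N_G(D) ≤ H` and the block `c` of `H` with defect group `D` induces `B`, then `D` is a defect
group of `B`. -/
theorem isDefectGroup_of_induced_of_normalizer_le (hM : IsPModular p M) {D : Subgroup G}
    (hDH : D ≤ H) (hNH : Subgroup.normalizer (D : Set G) ≤ H) {c : Set (IrrCharacter H)}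
    (hcD : IsDefectGroup p M c (D.subgroupOf H)) {B : Set (IrrCharacter G)}
    (hind : IsInducedBlock M H c B) : IsDefectGroup p M B D := by
  classical
  haveI : M.IsMaximal := hM.2.1
  haveI : CharP (FM M) p := Cfsg.Agent.Lib.Helper16.charP_FM hM
  have hDp : IsPGroup p D := by
    have := (Cfsg.Agent.Lib.Helper16.IsDefectGroup.isPGroup hcD).map H.subtype
    rwa [Subgroup.map_subgroupOf_eq_of_le hDH] at this
  obtain ⟨β', hβ', hβD⟩ := exists_block_normalizer H (Subgroup.normalizer (D : Set G)) hM hDH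
    le_rfl le_rfl hNH hind.1 hcD
  exact Cfsg.Agent.Lib.Helper16.isDefectGroup_of_induced M p _ hM hDp le_rfl le_rfl
    (IsInducedBlock.trans H _ hM hNH hβ' hind) hβD

/-- If `N_G(D) ≤ H`, two blocks of `H` with defect group `D` inducing the same block are equal. -/
theorem eq_of_induced_of_normalizer_le (hM : IsPModular p M) {D : Subgroup G}
    (hDH : D ≤ H) (hNH : Subgroup.normalizer (D : Set G) ≤ H) {c₁ c₂ : Set (IrrCharacter H)}
    (hc₁D : IsDefectGroup p M c₁ (D.subgroupOf H)) (hc₂D : IsDefectGroup p M c₂ (D.subgroupOf H))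
    {B : Set (IrrCharacter G)} (hind₁ : IsInducedBlock M H c₁ B)
    (hind₂ : IsInducedBlock M H c₂ B) : c₁ = c₂ := by
  classical
  haveI : M.IsMaximal := hM.2.1
  haveI : CharP (FM M) p := Cfsg.Agent.Lib.Helper16.charP_FM hM
  have hDp : IsPGroup p D := by
    have := (Cfsg.Agent.Lib.Helper16.IsDefectGroup.isPGroup hc₁D).map H.subtype
    rwa [Subgroup.map_subgroupOf_eq_of_le hDH] at this
  obtain ⟨β₁, hβ₁, hβ₁D⟩ := exists_block_normalizer H (Subgroup.normalizer (D : Set G)) hM hDH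
    le_rfl le_rfl hNH hind₁.1 hc₁D
  obtain ⟨β₂, hβ₂, hβ₂D⟩ := exists_block_normalizer H (Subgroup.normalizer (D : Set G)) hM hDH
    le_rfl le_rfl hNH hind₂.1 hc₂D
  have h1 := Cfsg.Agent.Lib.Helper16.eq_of_induced_of_defect M p _ hM hDp le_rfl le_rfl
    (IsInducedBlock.trans H _ hM hNH hβ₁ hind₁) (IsInducedBlock.trans H _ hM hNH hβ₂ hind₂) hβ₁D
  have h2 := tr_injective _ h1
  subst h2
  exact IsInducedBlock.unique _ (pmod_isPrime hM) hβ₁ hβ₂

end ext

end Cfsg.Agent.Lib.Helper35
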