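import Mathlib
import Cfsg.Prelude.Def_Blocks
import Cfsg.Prelude.Def_BlockLocal
import Cfsg.Agent.Lib.Helper35.HarrisKnorr2

/-!
# Towards the Harris–Knörr correspondence, part 3: blocks of `N_G(Q)` inducing a block covering `d`
cover the Brauer correspondent of `d`
-/

set_option autoImplicit false
set_option linter.unusedSectionVars false
set_option linter.style.haveILetI false

namespace Cfsg.Agent.Lib.Helper35

open Cfsg Cfsg.Agent.Lib.Helper15 Cfsg.Agent.Lib.Helper78 Cfsg.Agent.Lib.Helper74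
open Cfsg.Agent.Lib.Helper16 (irrCongr irrCongr_apply)
open scoped ComplexConjugate

local notation "cjS" => Cfsg.Agent.Lib.Helper16.cj

section hk

variable {G : Type*} [Group G] [Fintype G] (N : Subgroup G) [hN : N.Normal] [Fintype N]
variable (H : Subgroup G) [Fintype H] [Fintype (N.subgroupOf H)] [Fintype (H.subgroupOf N)]
variable {M : Ideal AlgInt} {p : ℕ} [Fact p.Prime]
variable {Q : Subgroup G}

theorem cjIrr_of_mem (n : N) (φ : IrrCharacter N) : cjIrr N (n : G) φ = φ := by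
  apply Subtype.ext
  funext m
  rw [cjIrr_coe, cj_apply]
  exact irr_isClassFunction φ m n

theorem covers_of_induced (hM : IsPModular p M) (hQp : IsPGroup p Q) (hQN : Q ≤ N)
    (hHN : H ≤ Subgroup.normalizer (Q : Set G)) (hNH : Subgroup.normalizer (Q : Set G) ≤ H)
    {d : Set (IrrCharacter N)} (hd : IsPBlock M d) (hdQ : IsDefectGroup p M d (Q.subgroupOf N))
    {e' : Set (IrrCharacter (N.subgroupOf H))} (he' : IsPBlock M e')
    (he'Q : IsDefectGroup p M e' ((Q.subgroupOf H).subgroupOf (N.subgroupOf H)))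
    (hrel : ∀ ξ' ∈ e', ∀ θ ∈ d, Rel N H M (ξ' : N.subgroupOf H → ℂ) (θ : N → ℂ))
    {B : Set (IrrCharacter G)} (hBd : Covers N B d) {c₀ : Set (IrrCharacter H)}
    (hind : IsInducedBlock M H c₀ B) : Covers (N.subgroupOf H) c₀ e' := by
  have hMp := pmod_isPrime hM
  obtain ⟨hc₀, hB, _⟩ := id hind
  obtain ⟨ψ, hψ⟩ := IsPBlock.nonempty hMp hc₀
  obtain ⟨ξ₁, hξ₁⟩ := Cfsg.Agent.Lib.Helper80.exists_constituent_restrict ψ (N.subgroupOf H)
  have he₁ : IsPBlock M (blockOf M (ξ₁ : N.subgroupOf H → ℂ)) := ⟨ξ₁, rfl⟩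
  have hcov₁ : Covers (N.subgroupOf H) c₀ (blockOf M (ξ₁ : N.subgroupOf H → ℂ)) :=
    ⟨ψ, hψ, ξ₁, mem_blockOf_self hMp ξ₁, hξ₁⟩
  obtain ⟨d₁, hind₁⟩ := exists_rel N H hM hQp hQN hHN hNH he₁
  have hrel₁ := rel_of_isInducedBlock N H hMp hind₁
  have hd₁ := hind₁.2.1
  have hBd₁ : Covers N B d₁ := covers_of_rel N H hMp hind he₁ hcov₁ hd₁ hrel₁
  obtain ⟨θ₁, hθ₁⟩ := IsPBlock.nonempty hMp hd₁
  obtain ⟨χ, hχ, hχθ₁⟩ := exists_over_of_covers N hMp hB hd₁ hBd₁ hθ₁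
  obtain ⟨g, hg⟩ := exists_cjIrr_mem_of_covers N hMp hB hd
    (Covers.memLocalIdeal N hMp hB hd hBd) hχ hχθ₁
  obtain ⟨E, hE, hQE⟩ := exists_defect_ge N H hM hQp hQN hHN hNH hind₁
  set α : N ≃* N := MulAut.conjNormal g with hα
  have htr : tr α d₁ = d := by
    apply IsPBlock.eq_of_mem_mem hMp (isPBlock_tr α hM.2.1 hd₁) hd (χ := cjIrr N g θ₁) ?_ hg
    have : cjIrr N g θ₁ = irrCongr α θ₁ := Subtype.ext (cj_eq_comp N g _)
    rw [this]
    exact (irrCongr_mem_tr α).mpr hθ₁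
  have hE' : IsDefectGroup p M d (E.comap α.toMonoidHom) := htr ▸ isDefectGroup_tr α hE
  have hcard : Nat.card E = Nat.card (Q.subgroupOf N) := by
    rw [card_of_isDefectGroup hM hd hdQ, ← card_of_isDefectGroup hM hd hE']
    have h2 : E = (E.comap α.toMonoidHom).map α.toMonoidHom :=
      (Subgroup.map_comap_eq_self_of_surjective α.surjective E).symm
    conv_lhs => rw [h2]
    exact Subgroup.card_map_of_injective α.injective
  have hEQ : Q.subgroupOf N = E := Subgroup.eq_of_le_of_card_ge hQE (by rw [hcard])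
  rw [← hEQ] at hE'
  obtain ⟨n, hn⟩ := Cfsg.Agent.Lib.Helper16.IsDefectGroup.exists_conj_eq hM hd hdQ hE'
  have hk : g * (n : G) ∈ Subgroup.normalizer (Q : Set G) := by
    rw [Subgroup.mem_normalizer_iff]
    intro q
    by_cases hq : q ∈ N
    · have h1 : (n * ⟨q, hq⟩ * n⁻¹ : N) ∈ (Q.subgroupOf N).comap α.toMonoidHom ↔
          (n * ⟨q, hq⟩ * n⁻¹ : N) ∈ cjS n (Q.subgroupOf N) := by rw [hn]
      rw [Cfsg.Agent.Lib.Helper16.mem_cj] at h1
      have h2 : n⁻¹ * (n * ⟨q, hq⟩ * n⁻¹ : N) * n = ⟨q, hq⟩ := by group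
      rw [h2] at h1
      have h3 : (n * ⟨q, hq⟩ * n⁻¹ : N) ∈ (Q.subgroupOf N).comap α.toMonoidHom ↔
          g * (n : G) * q * (g * (n : G))⁻¹ ∈ Q := by
        rw [Subgroup.mem_comap, Subgroup.mem_subgroupOf]
        have : ((α.toMonoidHom (n * ⟨q, hq⟩ * n⁻¹ : N) : N) : G) =
            g * (n : G) * q * (g * (n : G))⁻¹ := by
          simp only [hα, MulEquiv.coe_toMonoidHom, MulAut.conjNormal_apply, Subgroup.coe_mul,
            InvMemClass.coe_inv]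
          group
        rw [this]
      rw [h3] at h1
      exact h1.symm
    · constructor
      · intro h; exact absurd (hQN h) hq
      · intro h
        exfalso
        apply hq
        have := hN.conj_mem _ (hQN h) (g * (n : G))⁻¹
        simpa [mul_assoc] using this
  set k : H := ⟨g * (n : G), hNH hk⟩ with hkdef
  have hcj : cjIrr N (g * (n : G)) θ₁ = cjIrr N g θ₁ := by
    rw [← cjIrr_cjIrr, cjIrr_of_mem]
  set ξ₂ := cjIrr (N.subgroupOf H) k ξ₁ with hξ₂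
  have hrel₂ : Rel N H M (ξ₂ : N.subgroupOf H → ℂ) (cjIrr N (g * (n : G)) θ₁ : N → ℂ) :=
    (hrel₁ ξ₁ (mem_blockOf_self hMp ξ₁) θ₁ hθ₁).cj N H k
  obtain ⟨ξ', hξ'⟩ := IsPBlock.nonempty hMp he'
  obtain ⟨θ, hθ⟩ := IsPBlock.nonempty hMp hd
  have hfin : e' = blockOf M (ξ₂ : N.subgroupOf H → ℂ) :=
    eq_of_rel N H hM hQp hQN hHN hNH he' ⟨ξ₂, rfl⟩ hd ⟨ξ', hξ', θ, hθ, hrel ξ' hξ' θ hθ⟩
      ⟨ξ₂, mem_blockOf_self hMp ξ₂, _, hcj ▸ hg, hrel₂⟩ he'Q
  exact ⟨ψ, hψ, ξ₂, hfin ▸ mem_blockOf_self hMp ξ₂,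
    (over_cjIrr_iff (N.subgroupOf H) ψ k ξ₁).mpr hξ₁⟩

end hk

end Cfsg.Agent.Lib.Helper35
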