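import Mathlib
import Cfsg.Prelude.Def_Blocks
import Cfsg.Prelude.Def_BlockLocal
import Cfsg.Agent.Lib.Helper35.HarrisKnorr3
import Cfsg.Agent.Lib.Helper35.FirstMainExt

/-!
# Towards the Harris–Knörr correspondence, part 4: injectivity
-/

set_option autoImplicit false
set_option linter.unusedSectionVars false
set_option linter.style.haveILetI false

namespace Cfsg.Agent.Lib.Helper35

open Cfsg Cfsg.Agent.Lib.Helper15 Cfsg.Agent.Lib.Helper78 Cfsg.Agent.Lib.Helper74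
open Cfsg.Agent.Lib.Helper16 (irrCongr irrCongr_apply)
open scoped ComplexConjugate

local notation "cjS" => Cfsg.Agent.Lib.Helper16.cj

section hk

variable {G : Type*} [Group G] [Fintype G] (N : Subgroup G) [hN : N.Normal] [Fintype N]
variable (H : Subgroup G) [Fintype H] [Fintype (N.subgroupOf H)] [Fintype (H.subgroupOf N)]
variable {M : Ideal AlgInt} {p : ℕ} [Fact p.Prime]
variable {Q : Subgroup G}

omit [Fintype G] hN [Fintype N] [Fintype H] [Fintype (N.subgroupOf H)]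
  [Fintype (H.subgroupOf N)] in
theorem map_inf_eq_of_inf_eq (hQH : Q ≤ H) {P : Subgroup H}
    (h : P ⊓ N.subgroupOf H = Q.subgroupOf H) : P.map H.subtype ⊓ N = Q := by
  ext g
  constructor
  · rintro ⟨⟨y, hy, rfl⟩, hgN⟩
    have : y ∈ P ⊓ N.subgroupOf H := ⟨hy, hgN⟩
    rw [h] at this
    exact this
  · intro hg
    have : (⟨g, hQH hg⟩ : H) ∈ P ⊓ N.subgroupOf H := by rw [h]; exact hg
    exact ⟨⟨_, this.1, rfl⟩, this.2⟩

omit [Fintype N] [Fintype H] [Fintype (N.subgroupOf H)]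
  [Fintype (H.subgroupOf N)] in
theorem mem_normalizer_of_cjS_eq {D D' : Subgroup G} (hD : D ⊓ N = Q) (hD' : D' ⊓ N = Q) {g : G}
    (h : D' = cjS g D) : g ∈ Subgroup.normalizer (Q : Set G) := by
  apply Cfsg.Agent.Lib.Helper16.mem_normalizer_of_cj_eq
  rw [← hD, cjS_inf_normal, ← h, hD', hD]

theorem eq_of_covers_of_induced (hM : IsPModular p M) (hQN : Q ≤ N)
    (hNH : Subgroup.normalizer (Q : Set G) ≤ H)
    {e' : Set (IrrCharacter (N.subgroupOf H))} (he' : IsPBlock M e')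
    (he'Q : IsDefectGroup p M e' ((Q.subgroupOf H).subgroupOf (N.subgroupOf H)))
    {c₁ c₂ : Set (IrrCharacter H)} (hcov₁ : Covers (N.subgroupOf H) c₁ e')
    (hcov₂ : Covers (N.subgroupOf H) c₂ e') {B : Set (IrrCharacter G)}
    (hind₁ : IsInducedBlock M H c₁ B) (hind₂ : IsInducedBlock M H c₂ B) : c₁ = c₂ := by
  have hQH : Q ≤ H := Subgroup.le_normalizer.trans hNH
  have hQL : Q.subgroupOf H ≤ N.subgroupOf H := Subgroup.subgroupOf_mono H hQN
  obtain ⟨P₁, hP₁, hP₁Q⟩ := knorr (N.subgroupOf H) hM hind₁.1 he' hcov₁ hQL he'Q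
  obtain ⟨P₂, hP₂, hP₂Q⟩ := knorr (N.subgroupOf H) hM hind₂.1 he' hcov₂ hQL he'Q
  have hD₁ := map_inf_eq_of_inf_eq N H hQH hP₁Q
  have hD₂ := map_inf_eq_of_inf_eq N H hQH hP₂Q
  set D₁ := P₁.map H.subtype with hD₁def
  set D₂ := P₂.map H.subtype with hD₂def
  have hD₁H : D₁ ≤ H := Subgroup.map_subtype_le P₁
  have hD₂H : D₂ ≤ H := Subgroup.map_subtype_le P₂
  have hs₁ : D₁.subgroupOf H = P₁ := Subgroup.comap_map_eq_self_of_injective H.subtype_injective P₁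
  have hs₂ : D₂.subgroupOf H = P₂ := Subgroup.comap_map_eq_self_of_injective H.subtype_injective P₂
  have hN₁ : Subgroup.normalizer (D₁ : Set G) ≤ H := fun g hg =>
    hNH (mem_normalizer_of_cjS_eq N hD₁ hD₁
      (Cfsg.Agent.Lib.Helper16.cj_eq_of_mem_normalizer hg).symm)
  have hN₂ : Subgroup.normalizer (D₂ : Set G) ≤ H := fun g hg =>
    hNH (mem_normalizer_of_cjS_eq N hD₂ hD₂
      (Cfsg.Agent.Lib.Helper16.cj_eq_of_mem_normalizer hg).symm)
  have hB₁ := isDefectGroup_of_induced_of_normalizer_le H hM hD₁H hN₁ (hs₁.symm ▸ hP₁) hind₁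
  have hB₂ := isDefectGroup_of_induced_of_normalizer_le H hM hD₂H hN₂ (hs₂.symm ▸ hP₂) hind₂
  obtain ⟨g, hg⟩ := Cfsg.Agent.Lib.Helper16.IsDefectGroup.exists_conj_eq hM hind₁.2.1 hB₁ hB₂
  have hgH : g ∈ H := hNH (mem_normalizer_of_cjS_eq N hD₁ hD₂ hg)
  have h3 : D₂.subgroupOf H = cjS (⟨g, hgH⟩ : H) P₁ := by
    ext y
    rw [Subgroup.mem_subgroupOf, hg, Cfsg.Agent.Lib.Helper16.mem_cj,
      Cfsg.Agent.Lib.Helper16.mem_cj]
    constructor
    · rintro ⟨z, hz, hzy⟩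
      have : (⟨g, hgH⟩ : H)⁻¹ * y * ⟨g, hgH⟩ = z := Subtype.ext hzy.symm
      rw [this]
      exact hz
    · intro h
      exact ⟨_, h, rfl⟩
  have hc₁D₂ : IsDefectGroup p M c₁ (D₂.subgroupOf H) := by
    rw [h3]
    exact Cfsg.Agent.Lib.Helper16.IsDefectGroup.conj hP₁ _
  exact eq_of_induced_of_normalizer_le H hM hD₂H hN₂ hc₁D₂ (hs₂.symm ▸ hP₂) hind₁ hind₂

end hk

end Cfsg.Agent.Lib.Helper35
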