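import Mathlib
import Cfsg.Prelude.Def_Blocks
import Cfsg.Prelude.Def_BlockLocal
import Cfsg.Agent.Lib.Helper35.HarrisKnorr4

/-!
# The Harris–Knörr correspondence
-/

set_option autoImplicit false
set_option linter.unusedSectionVars false
set_option linter.style.haveILetI false

namespace Cfsg.Agent.Lib.Helper35

open Cfsg Cfsg.Agent.Lib.Helper15 Cfsg.Agent.Lib.Helper78 Cfsg.Agent.Lib.Helper74
open Cfsg.Agent.Lib.Helper16 (irrCongr irrCongr_apply)
open scoped ComplexConjugate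

local notation "cjS" => Cfsg.Agent.Lib.Helper16.cj

section hk

variable {G : Type*} [Group G] [Fintype G] (N : Subgroup G) [hN : N.Normal] [Fintype N]
variable (H : Subgroup G) [Fintype H] [Fintype (N.subgroupOf H)] [Fintype (H.subgroupOf N)]
variable [Fintype ↥(H ⊓ N)]
variable {M : Ideal AlgInt} {p : ℕ} [Fact p.Prime]
variable {Q : Subgroup G}

/-- `H ∩ N` inside `H`, and as a subgroup of `G` -/
def lamIso : N.subgroupOf H ≃* ↥(H ⊓ N) where
  toFun x := ⟨((x : H) : G), ⟨(x : H).2, x.2⟩⟩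
  invFun y := ⟨⟨(y : G), y.2.1⟩, y.2.2⟩
  left_inv _ := rfl
  right_inv _ := rfl
  map_mul' _ _ := rfl

theorem covers_tr_iff (c : Set (IrrCharacter H)) (e : Set (IrrCharacter ↥(H ⊓ N))) :
    (∃ ψ ∈ c, ∃ ξ ∈ e, classInner (fun l : ↥(H ⊓ N) => (ψ : H → ℂ)
      (Subgroup.inclusion inf_le_left l)) (ξ : ↥(H ⊓ N) → ℂ) ≠ 0) ↔
      Covers (N.subgroupOf H) c (tr (lamIso N H) e) := by
  constructor
  · rintro ⟨ψ, hψ, ξ, hξ, h⟩
    refine ⟨ψ, hψ, irrCongr (lamIso N H) ξ, (irrCongr_mem_tr _).mpr hξ, ?_⟩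
    rw [← classInner_comp_equiv (lamIso N H)] at h
    exact h
  · rintro ⟨ψ, hψ, ξ', hξ', h⟩
    obtain ⟨ξ, hξ, rfl⟩ := (mem_tr_iff _).mp hξ'
    refine ⟨ψ, hψ, ξ, hξ, ?_⟩
    rw [← classInner_comp_equiv (lamIso N H)]
    exact h

omit hN [Fintype G] [Fintype H] [Fintype (N.subgroupOf H)] [Fintype (H.subgroupOf N)]
  [Fintype ↥(H ⊓ N)] in
theorem inducedCentralCharIn_eq_omega {K : Subgroup G} [Fintype K] (hKN : K ≤ N) (ξ : K → ℂ)
    (n : N) : inducedCentralCharIn N K ξ (n : G) =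
      omega ξ (fun l : K => classInd n (⟨l, hKN l.2⟩ : N)) := by
  classical
  unfold inducedCentralCharIn omega classInd
  rw [finsum_mem_def, finsum_eq_sum_of_fintype, Finset.sum_div]
  apply Finset.sum_congr rfl
  intro k _
  have hiff : (∃ x : N, (x : G) * (k : G) * (x : G)⁻¹ = n) ↔ IsConj n (⟨k, hKN k.2⟩ : N) := by
    constructor
    · rintro ⟨x, hx⟩
      exact (isConj_iff.mpr ⟨x, Subtype.ext hx⟩ : IsConj (⟨k, hKN k.2⟩ : N) n).symm
    · intro h
      obtain ⟨x, hx⟩ := isConj_iff.mp h.symm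
      exact ⟨x, congrArg Subtype.val hx⟩
  by_cases hn : IsConj n (⟨k, hKN k.2⟩ : N)
  · rw [Set.indicator_of_mem (by exact hiff.mpr hn)]
    simp only
    rw [if_pos hn, one_mul]
  · rw [Set.indicator_of_notMem (by exact fun h => hn (hiff.mp h))]
    simp only
    rw [if_neg hn, zero_mul, zero_div]

theorem rel_of_isInducedBlockIn (hM : M.IsPrime) {e : Set (IrrCharacter ↥(H ⊓ N))}
    {d : Set (IrrCharacter N)} (hed : IsInducedBlockIn M N (H ⊓ N) e d) :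
    ∀ ξ' ∈ tr (lamIso N H) e, ∀ θ ∈ d, Rel N H M (ξ' : N.subgroupOf H → ℂ) (θ : N → ℂ) := by
  classical
  intro ξ' hξ' θ hθ a ha ha'
  obtain ⟨ξ, hξ, rfl⟩ := (mem_tr_iff _).mp hξ'
  have h1 : omega (irrCongr (lamIso N H) ξ : N.subgroupOf H → ℂ)
      (fun x : N.subgroupOf H => a (jn N H x)) =
      omega (ξ : ↥(H ⊓ N) → ℂ) (fun l : ↥(H ⊓ N) => a ⟨l, l.2.2⟩) :=
    Cfsg.Agent.Lib.Helper16.omega_comp_equiv (lamIso N H) (ξ : ↥(H ⊓ N) → ℂ)
      (fun l : ↥(H ⊓ N) => a ⟨l, l.2.2⟩)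
  rw [h1]
  have h2 : (fun l : ↥(H ⊓ N) => a ⟨l, l.2.2⟩) =
      ∑ C : ConjClasses N, a (Quotient.out C) •
        (fun l : ↥(H ⊓ N) => classInd (Quotient.out C) (⟨l, l.2.2⟩ : N)) := by
    funext l
    rw [eq_sum_classInd ha, Finset.sum_apply]
    rfl
  rw [h2, omega_sum, omega_eq_sum_conjClasses (irr_isClassFunction θ) ha, ← Finset.sum_sub_distrib]
  apply MemLocalIdeal.sum hM
  intro C _
  rw [omega_smul, ← mul_sub]
  apply MemLocalIdeal.mul_left hM (ha' _)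
  rw [← inducedCentralCharIn_eq_omega N inf_le_right]
  exact hed.2.2 ξ hξ θ hθ _

/-- **Harris–Knörr** -/
theorem harris_knorr (hM : IsPModular p M) (hQp : IsPGroup p Q) (hQN : Q ≤ N)
    (hHN : H ≤ Subgroup.normalizer (Q : Set G)) (hNH : Subgroup.normalizer (Q : Set G) ≤ H)
    {d : Set (IrrCharacter N)} (hd : IsPBlock M d) (hdQ : IsDefectGroup p M d (Q.subgroupOf N))
    {e : Set (IrrCharacter ↥(H ⊓ N))} (he : IsPBlock M e)
    (heQ : IsDefectGroup p M e (Q.subgroupOf (H ⊓ N)))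
    (hed : IsInducedBlockIn M N (H ⊓ N) e d) :
    (∀ c : Set (IrrCharacter H), IsPBlock M c → Covers (N.subgroupOf H) c (tr (lamIso N H) e) →
      ∃! B : Set (IrrCharacter G), IsInducedBlock M H c B ∧ Covers N B d) ∧
    (∀ B : Set (IrrCharacter G), IsPBlock M B → Covers N B d →
      ∃! c : Set (IrrCharacter H), (IsPBlock M c ∧ Covers (N.subgroupOf H) c (tr (lamIso N H) e)) ∧
        IsInducedBlock M H c B) := by
  haveI : M.IsMaximal := hM.2.1
  haveI : CharP (Cfsg.Agent.Lib.Helper16.FM M) p := Cfsg.Agent.Lib.Helper16.charP_FM hM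
  have hMp := pmod_isPrime hM
  have hQH : Q ≤ H := Subgroup.le_normalizer.trans hNH
  have hCH : Subgroup.centralizer (Q : Set G) ≤ H :=
    (Subgroup.centralizer_le_normalizer _).trans hNH
  have he' : IsPBlock M (tr (lamIso N H) e) := isPBlock_tr _ hM.2.1 he
  have he'Q : IsDefectGroup p M (tr (lamIso N H) e)
      ((Q.subgroupOf H).subgroupOf (N.subgroupOf H)) := isDefectGroup_tr (lamIso N H) heQ
  have hrel := rel_of_isInducedBlockIn N H hMp hed
  constructor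
  · intro c hc hcov
    obtain ⟨B, hB⟩ := Cfsg.Agent.S0919.result p M hM Q H hQp hQH hCH hHN c hc
    refine ⟨B, ⟨hB, covers_of_rel N H hMp hB he' hcov hd hrel⟩, ?_⟩
    rintro B' ⟨hB', _⟩
    exact IsInducedBlock.unique H hMp hB' hB
  · intro B hB hBd
    obtain ⟨P, hP, hPQ⟩ := knorr N hM hB hd hBd hQN hdQ
    obtain ⟨c, hc⟩ := Cfsg.Agent.Lib.Helper16.exists_induced_of_le_defect M p H hM hQp hQH hCH hHN
      hB hP (hPQ ▸ inf_le_left)
    have hcov := covers_of_induced N H hM hQp hQN hHN hNH hd hdQ he' he'Q hrel hBd hc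
    refine ⟨c, ⟨⟨hc.1, hcov⟩, hc⟩, ?_⟩
    rintro c' ⟨⟨_, hcov'⟩, hc'⟩
    exact eq_of_covers_of_induced N H hM hQN hNH he' he'Q hcov' hcov hc' hc

end hk

end Cfsg.Agent.Lib.Helper35
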