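import Mathlib
import Cfsg.Prelude.Def_KGroupFacts
import Cfsg.Agent.Lib.Helper66.SchurBasic

set_option autoImplicit false

namespace Cfsg.Agent.Lib.Helper35

universe u v w

open Subgroup
open scoped commutatorElement

/-- A cyclic group whose order divides `n` is a quotient of `Z/n`. -/
theorem exists_surjective_of_isCyclic {H : Type u} [Group H] [IsCyclic H] {n : ℕ}
    (h : Nat.card H ∣ n) : ∃ π : Multiplicative (ZMod n) →* H, Function.Surjective π := by
  let e := zmodCyclicMulEquiv (G := H) inferInstance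
  let f : Multiplicative (ZMod n) →* Multiplicative (ZMod (Nat.card H)) :=
    AddMonoidHom.toMultiplicative (ZMod.castHom h (ZMod (Nat.card H))).toAddMonoidHom
  refine ⟨e.toMonoidHom.comp f, ?_⟩
  apply e.surjective.comp
  intro x
  obtain ⟨y, hy⟩ := ZMod.castHom_surjective h (Multiplicative.toAdd x)
  exact ⟨Multiplicative.ofAdd y, by simpa [f] using congrArg Multiplicative.ofAdd hy⟩

/-- Criterion for a cyclic Schur multiplier. -/
theorem hasCyclicSchurMultiplier_of {G : Type u} [Group G] {n : ℕ}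
    (h1 : ∃ (Γ : Type u) (_ : Group Γ) (_ : Finite Γ) (σ : Γ →* G), Cfsg.IsStemExtension σ ∧
      IsCyclic σ.ker ∧ Nat.card σ.ker = n)
    (h2 : ∀ (Γ : Type u) [Group Γ] [Finite Γ] (σ : Γ →* G), Cfsg.IsStemExtension σ →
      IsCyclic σ.ker ∧ Nat.card σ.ker ∣ n) :
    Cfsg.HasCyclicSchurMultiplier G n := by
  refine ⟨?_, ?_⟩
  · obtain ⟨Γ, i1, i2, σ, hσ, hc, hn⟩ := h1
    refine ⟨Γ, i1, i2, σ, hσ, ?_⟩
    have e := zmodCyclicMulEquiv hc
    rw [hn] at e
    exact ⟨e.symm⟩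
  · intro Γ _ _ σ hσ
    obtain ⟨hc, hn⟩ := h2 Γ σ hσ
    exact exists_surjective_of_isCyclic hn

variable {Γ : Type u} [Group Γ]

/-- If generators commute modulo a normal subgroup `N` then `Γ' ≤ N`. -/
theorem commutator_le_of_closure {S : Set Γ} (hS : closure S = ⊤) (N : Subgroup Γ) [N.Normal]
    (h : ∀ s ∈ S, ∀ t ∈ S, ⁅s, t⁆ ∈ N) : commutator Γ ≤ N := by
  rw [← Subgroup.Normal.quotient_commutative_iff_commutator_le]
  let q := QuotientGroup.mk' N
  have h1 : ∀ s ∈ S, ∀ g : Γ, q s * q g = q g * q s := by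
    intro s hs g
    have : closure S ≤ (centralizer {q s}).comap q := by
      rw [closure_le]
      intro t ht
      simp only [coe_comap, Set.mem_preimage, SetLike.mem_coe, mem_centralizer_singleton_iff]
      rw [← commutatorElement_eq_one_iff_mul_comm, ← map_commutatorElement]
      exact (QuotientGroup.eq_one_iff _).mpr (h t ht s hs)
    have hg : g ∈ closure S := hS ▸ mem_top g
    have := this hg
    simp only [mem_comap, mem_centralizer_singleton_iff] at this
    exact this.symm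
  have h2 : ∀ g' g : Γ, q g' * q g = q g * q g' := by
    intro g' g
    have : closure S ≤ (centralizer {q g}).comap q := by
      rw [closure_le]
      intro t ht
      simp only [coe_comap, Set.mem_preimage, SetLike.mem_coe, mem_centralizer_singleton_iff]
      exact h1 t ht g
    have hg : g' ∈ closure S := hS ▸ mem_top g'
    have := this hg
    simp only [mem_comap, mem_centralizer_singleton_iff] at this
    exact this
  refine ⟨⟨fun x y => ?_⟩⟩
  obtain ⟨x, rfl⟩ := QuotientGroup.mk'_surjective N x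
  obtain ⟨y, rfl⟩ := QuotientGroup.mk'_surjective N y
  exact h2 x y


/-! ### A pair `a, b` with `b a b⁻¹ = z a⁻¹`, `z` central -/

theorem conj_pow_of_central {a b z : Γ} (hz : z ∈ center Γ) (h : b * a * b⁻¹ = z * a⁻¹) (k : ℕ) :
    b * a ^ k * b⁻¹ = z ^ k * (a ^ k)⁻¹ := by
  have hc : Commute z a⁻¹ := (mem_center_iff.mp hz a⁻¹).symm
  rw [← conj_pow, h, hc.mul_pow, inv_pow]

theorem comm_pow_of_central {a b z : Γ} (hz : z ∈ center Γ) (h : b * a * b⁻¹ = z * a⁻¹) (k : ℕ) :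
    (b * a * b⁻¹ * a⁻¹) ^ k = z ^ k * (a ^ k)⁻¹ * (a ^ k)⁻¹ := by
  have hc : Commute z a⁻¹ := (mem_center_iff.mp hz a⁻¹).symm
  have hc2 : Commute (z * a⁻¹) a⁻¹ := hc.mul_left (Commute.refl _)
  rw [h, hc2.mul_pow, hc.mul_pow, inv_pow]

theorem comm_pow_eq_one {a b z : Γ} (hz : z ∈ center Γ) (h : b * a * b⁻¹ = z * a⁻¹) {n : ℕ}
    (hn : Commute b (a ^ n)) : (b * a * b⁻¹ * a⁻¹) ^ n = 1 := by
  have h1 := conj_pow_of_central hz h n
  have h2 : b * a ^ n * b⁻¹ = a ^ n := by rw [hn.eq, mul_inv_cancel_right]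
  rw [h2] at h1
  rw [comm_pow_of_central hz h, ← h1, mul_inv_cancel]

theorem commutator_le_zpowers {Z : Subgroup Γ} (hZ : Z ≤ center Γ) {a b : Γ}
    (hgen : closure ({a, b} ∪ (Z : Set Γ)) = ⊤) (hz : b * a * b⁻¹ * a ∈ Z) :
    commutator Γ ≤ zpowers (b * a * b⁻¹ * a⁻¹) := by
  set z := b * a * b⁻¹ * a with hzdef
  have hzc : z ∈ center Γ := hZ hz
  have h : b * a * b⁻¹ = z * a⁻¹ := by rw [hzdef, mul_inv_cancel_right]
  set c := b * a * b⁻¹ * a⁻¹ with hc
  have hc' : c = z * a⁻¹ * a⁻¹ := by rw [hc, h]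
  have hza : ∀ g, z * g = g * z := fun g => (mem_center_iff.mp hzc g).symm
  have hac : a * c * a⁻¹ = c := by
    rw [hc']
    calc a * (z * a⁻¹ * a⁻¹) * a⁻¹ = (a * z) * a⁻¹ * a⁻¹ * a⁻¹ := by group
      _ = (z * a) * a⁻¹ * a⁻¹ * a⁻¹ := by rw [hza a]
      _ = z * a⁻¹ * a⁻¹ := by group
  have hbc : b * c * b⁻¹ = c⁻¹ := by
    have e1 : b * a⁻¹ * b⁻¹ = a * z⁻¹ := by
      have : b * a⁻¹ * b⁻¹ = (b * a * b⁻¹)⁻¹ := by group
      rw [this, h]; group
    have hzi : ∀ g, z⁻¹ * g = g * z⁻¹ := fun g =>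
      (mem_center_iff.mp (inv_mem hzc) g).symm
    calc b * c * b⁻¹ = (b * z) * b⁻¹ * (b * a⁻¹ * b⁻¹) * (b * a⁻¹ * b⁻¹) := by rw [hc']; group
      _ = (z * b) * b⁻¹ * (a * z⁻¹) * (a * z⁻¹) := by rw [e1, hza b]
      _ = z * a * (z⁻¹ * a) * z⁻¹ := by group
      _ = z * a * (a * z⁻¹) * z⁻¹ := by rw [hzi a]
      _ = (z * (a * a)) * z⁻¹ * z⁻¹ := by group
      _ = ((a * a) * z) * z⁻¹ * z⁻¹ := by rw [hza (a * a)]
      _ = a * a * z⁻¹ := by group
      _ = c⁻¹ := by rw [hc']; simp only [mul_inv_rev, inv_inv, mul_assoc]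
  have hnorm : (zpowers c).Normal := by
    rw [← normalizer_eq_top_iff, eq_top_iff, ← hgen, closure_le]
    intro s hs
    rw [SetLike.mem_coe, mem_normalizer_iff_map_conj_eq, MonoidHom.map_zpowers]
    simp only [MonoidHom.coe_coe, MulAut.conj_apply]
    rcases hs with hs | hs
    · rcases hs with rfl | hs
      · rw [hac]
      · rw [Set.mem_singleton_iff] at hs
        rw [hs, hbc, zpowers_inv]
    · have : s * c * s⁻¹ = c := by
        rw [← mem_center_iff.mp (hZ hs) c, mul_inv_cancel_right]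
      rw [this]
  apply commutator_le_of_closure hgen
  have hcen : ∀ s ∈ Z, ∀ t, ⁅s, t⁆ ∈ zpowers c ∧ ⁅t, s⁆ ∈ zpowers c := by
    intro s hs t
    have h1 : ⁅s, t⁆ = 1 := by
      rw [commutatorElement_eq_one_iff_mul_comm]; exact (mem_center_iff.mp (hZ hs) t).symm
    have h2 : ⁅t, s⁆ = 1 := by
      rw [commutatorElement_eq_one_iff_mul_comm]; exact (mem_center_iff.mp (hZ hs) t)
    rw [h1, h2]; exact ⟨one_mem _, one_mem _⟩
  have hba : ⁅b, a⁆ ∈ zpowers c := by
    rw [commutatorElement_def]; exact mem_zpowers c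
  have hab : ⁅a, b⁆ ∈ zpowers c := by
    rw [← commutatorElement_inv]; exact inv_mem hba
  intro s hs t ht
  rcases hs with hs | hs
  · rcases ht with ht | ht
    · rcases hs with rfl | hs <;> rcases ht with rfl | ht
      · rw [commutatorElement_self]; exact one_mem _
      · rw [Set.mem_singleton_iff] at ht; rw [ht]; exact hab
      · rw [Set.mem_singleton_iff] at hs; rw [hs]; exact hba
      · rw [Set.mem_singleton_iff] at hs ht; rw [hs, ht, commutatorElement_self]; exact one_mem _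
    · exact (hcen t ht s).2
  · exact (hcen s hs t).1

/-- generation of the middle group of an extension -/
theorem closure_union_ker_eq_top {G : Type v} [Group G] (σ : Γ →* G) {S : Set Γ}
    (hS : closure (σ '' S) = ⊤) : closure (S ∪ (σ.ker : Set Γ)) = ⊤ := by
  rw [eq_top_iff]
  intro g _
  have h1 : σ g ∈ (closure S).map σ := by
    rw [MonoidHom.map_closure, hS]; exact mem_top _
  obtain ⟨h, hh, hhg⟩ := h1
  have h2 : h⁻¹ * g ∈ σ.ker := by
    rw [MonoidHom.mem_ker, map_mul, map_inv, hhg, inv_mul_cancel]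
  have h3 : g = h * (h⁻¹ * g) := by group
  rw [h3]
  exact mul_mem (closure_mono Set.subset_union_left hh) (subset_closure (Or.inr h2))


/-- In a stem extension of a group generated by `σ a`, `σ b` with `σ b` inverting `σ a`, every element of the
kernel is a power `c ^ k` of the commutator `c = b a b⁻¹ a⁻¹`, with `(σ a) ^ (2 k) = 1`. -/
theorem exists_zpow_of_mem_ker {G : Type v} [Group G] {σ : Γ →* G} (hσ : Cfsg.IsStemExtension σ)
    {a b : Γ} (hgen : closure {σ a, σ b} = ⊤) (hinv : σ b * σ a * (σ b)⁻¹ = (σ a)⁻¹)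
    {x : Γ} (hx : x ∈ σ.ker) :
    ∃ k : ℤ, (b * a * b⁻¹ * a⁻¹) ^ k = x ∧ (σ a) ^ (2 * k) = 1 := by
  have hz : b * a * b⁻¹ * a ∈ σ.ker := by
    rw [MonoidHom.mem_ker]; simp only [map_mul, map_inv, hinv, inv_mul_cancel]
  have hgen' : closure ({a, b} ∪ (σ.ker : Set Γ)) = ⊤ := by
    apply closure_union_ker_eq_top
    rw [Set.image_pair]; exact hgen
  have h1 := commutator_le_zpowers hσ.2.1 hgen' hz
  obtain ⟨k, hk⟩ := mem_zpowers_iff.mp (h1 (hσ.2.2 hx))
  refine ⟨k, hk, ?_⟩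
  have h2 : σ ((b * a * b⁻¹ * a⁻¹) ^ k) = 1 := by rw [hk]; exact hx
  rw [map_zpow] at h2
  simp only [map_mul, map_inv, hinv] at h2
  rw [← mul_inv_rev, inv_zpow, inv_eq_one] at h2
  rw [zpow_mul, zpow_two]
  exact h2

end Cfsg.Agent.Lib.Helper35
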