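import Mathlib
import Cfsg.Prelude.Def_KGroupFacts
import Cfsg.Agent.Lib.Helper35.Stem

set_option autoImplicit false

namespace Cfsg.Agent.Lib.Helper35

universe u v w

open Subgroup
open scoped commutatorElement

/-- The Heisenberg group over a commutative ring `R`. -/
@[ext]
structure Heis (R : Type u) where
  x : R
  y : R
  z : R

namespace Heis

variable {R : Type u} [CommRing R]

instance instMulHeis : Mul (Heis R) := ⟨fun a b => ⟨a.x + b.x, a.y + b.y, a.z + b.z + a.x * b.y⟩⟩
instance instOneHeis : One (Heis R) := ⟨⟨0, 0, 0⟩⟩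
instance instInvHeis : Inv (Heis R) := ⟨fun a => ⟨-a.x, -a.y, -a.z + a.x * a.y⟩⟩

@[simp] theorem mul_x (a b : Heis R) : (a * b).x = a.x + b.x := rfl
@[simp] theorem mul_y (a b : Heis R) : (a * b).y = a.y + b.y := rfl
@[simp] theorem mul_z (a b : Heis R) : (a * b).z = a.z + b.z + a.x * b.y := rfl
@[simp] theorem one_x : (1 : Heis R).x = 0 := rfl
@[simp] theorem one_y : (1 : Heis R).y = 0 := rfl
@[simp] theorem one_z : (1 : Heis R).z = 0 := rfl
@[simp] theorem inv_x (a : Heis R) : (a⁻¹).x = -a.x := rfl
@[simp] theorem inv_y (a : Heis R) : (a⁻¹).y = -a.y := rfl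
@[simp] theorem inv_z (a : Heis R) : (a⁻¹).z = -a.z + a.x * a.y := rfl

instance instGroupHeis : Group (Heis R) :=
  Group.ofLeftAxioms
    (by intro a b c; ext <;> simp <;> ring)
    (by intro a; ext <;> simp)
    (by intro a; ext <;> simp)

/-- as a type, `Heis R` is `R × R × R`. -/
def equivProd : Heis R ≃ R × R × R where
  toFun a := (a.x, a.y, a.z)
  invFun t := ⟨t.1, t.2.1, t.2.2⟩
  left_inv _ := rfl
  right_inv _ := rfl

instance instFiniteHeis [Finite R] : Finite (Heis R) := Finite.of_equiv _ equivProd.symm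

/-- The projection onto `R × R`. -/
def proj : Heis R →* Multiplicative (R × R) where
  toFun a := Multiplicative.ofAdd (a.x, a.y)
  map_one' := rfl
  map_mul' _ _ := rfl

theorem proj_surjective : Function.Surjective (proj (R := R)) := by
  intro t
  exact ⟨⟨t.toAdd.1, t.toAdd.2, 0⟩, rfl⟩

theorem mem_ker_proj {a : Heis R} : a ∈ (proj (R := R)).ker ↔ a.x = 0 ∧ a.y = 0 := by
  rw [MonoidHom.mem_ker]
  constructor
  · intro h
    have h' : (a.x, a.y) = (0, 0) := h
    exact ⟨congrArg Prod.fst h', congrArg Prod.snd h'⟩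
  · rintro ⟨h1, h2⟩
    show Multiplicative.ofAdd (a.x, a.y) = 1
    rw [h1, h2]; rfl

theorem proj_isStem : Cfsg.IsStemExtension (proj (R := R)) := by
  refine ⟨proj_surjective, ?_, ?_⟩
  · intro a ha
    obtain ⟨h1, h2⟩ := mem_ker_proj.mp ha
    rw [mem_center_iff]
    intro g
    ext <;> simp [h1, h2, add_comm]
  · intro a ha
    obtain ⟨h1, h2⟩ := mem_ker_proj.mp ha
    have : a = ⁅(⟨1, 0, 0⟩ : Heis R), (⟨0, a.z, 0⟩ : Heis R)⁆ := by
      rw [commutatorElement_def]
      ext <;> simp [h1, h2]
    rw [this, _root_.commutator_def]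
    exact commutator_mem_commutator (mem_top _) (mem_top _)

/-- The kernel of the projection is the additive group of `R`. -/
def kerEquiv : (proj (R := R)).ker ≃* Multiplicative R where
  toFun a := Multiplicative.ofAdd a.1.z
  invFun t := ⟨⟨0, 0, t.toAdd⟩, mem_ker_proj.mpr ⟨rfl, rfl⟩⟩
  left_inv a := by
    obtain ⟨h1, h2⟩ := mem_ker_proj.mp a.2
    ext <;> simp [h1, h2]
  right_inv t := rfl
  map_mul' a b := by
    obtain ⟨h1, h2⟩ := mem_ker_proj.mp a.2
    show Multiplicative.ofAdd (a.1.z + b.1.z + a.1.x * b.1.y) = _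
    rw [h1, zero_mul, add_zero]; rfl

end Heis

/-! ### Pull-back of a stem extension along a surjection from an abelian group -/

theorem commutator_eq_bot_of_commGroup (G : Type u) [CommGroup G] : commutator G = ⊥ := by
  rw [commutator_eq_closure, closure_eq_bot_iff]
  rintro x ⟨a, b, rfl⟩
  rw [Set.mem_singleton_iff, commutatorElement_eq_one_iff_mul_comm]
  exact mul_comm a b

section Pullback

variable {G : Type u} [CommGroup G] {H : Type v} [Group H] {Q : Type w} [Group Q]

/-- the pull-back group -/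
def pullback (τ : H →* Q) (f : G →* Q) : Subgroup (G × H) :=
  (f.comp (MonoidHom.fst G H)).eqLocus (τ.comp (MonoidHom.snd G H))

/-- the pull-back extension -/
def pullbackHom (τ : H →* Q) (f : G →* Q) : pullback τ f →* G :=
  (MonoidHom.fst G H).comp (pullback τ f).subtype

theorem mem_pullback {τ : H →* Q} {f : G →* Q} {e : G × H} : e ∈ pullback τ f ↔ f e.1 = τ e.2 :=
  Iff.rfl

theorem pullback_isStem {τ : H →* Q} (hτ : Cfsg.IsStemExtension τ) {f : G →* Q}
    (hf : Function.Surjective f) : Cfsg.IsStemExtension (pullbackHom τ f) := by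
  have hker : ∀ e : pullback τ f, e ∈ (pullbackHom τ f).ker → e.1.1 = 1 ∧ e.1.2 ∈ τ.ker := by
    intro e he
    have h1 : e.1.1 = 1 := he
    refine ⟨h1, ?_⟩
    have := mem_pullback.mp e.2
    rw [h1, map_one] at this
    exact this.symm
  refine ⟨?_, ?_, ?_⟩
  · intro g
    obtain ⟨h, hh⟩ := hτ.1 (f g)
    exact ⟨⟨(g, h), mem_pullback.mpr hh.symm⟩, rfl⟩
  · intro e he
    obtain ⟨h1, h2⟩ := hker e he
    rw [mem_center_iff]
    intro g
    apply Subtype.ext
    apply Prod.ext
    · exact mul_comm _ _
    · exact mem_center_iff.mp (hτ.2.1 h2) g.1.2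
  · intro e he
    obtain ⟨h1, h2⟩ := hker e he
    let pr : pullback τ f →* H := (MonoidHom.snd G H).comp (pullback τ f).subtype
    have hpr : Function.Surjective pr := by
      intro h
      obtain ⟨g, hg⟩ := hf (τ h)
      exact ⟨⟨(g, h), mem_pullback.mpr hg⟩, rfl⟩
    have h3 : e.1.2 ∈ (commutator (pullback τ f)).map pr := by
      rw [_root_.commutator_def, map_commutator, ← MonoidHom.range_eq_map, MonoidHom.range_eq_top.mpr hpr,
        ← _root_.commutator_def]
      exact hτ.2.2 h2
    obtain ⟨e', he', hee⟩ := h3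
    have h4 : e'.1.1 = 1 := by
      have : pullbackHom τ f e' ∈ commutator G := by
        have := Subgroup.mem_map_of_mem (pullbackHom τ f) he'
        rw [_root_.commutator_def, map_commutator] at this
        rw [_root_.commutator_def]
        exact commutator_mono le_top le_top this
      rw [commutator_eq_bot_of_commGroup] at this
      exact this
    have : e = e' := by
      apply Subtype.ext
      apply Prod.ext
      · rw [h1, h4]
      · exact hee.symm
    rw [this]; exact he'

/-- the kernel of the pull-back extension -/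
def pullbackKerEquiv (τ : H →* Q) (f : G →* Q) : (pullbackHom τ f).ker ≃* τ.ker where
  toFun e := ⟨e.1.1.2, by
    have h1 : e.1.1.1 = 1 := e.2
    have := mem_pullback.mp e.1.2
    rw [h1, map_one] at this
    exact this.symm⟩
  invFun h := ⟨⟨(1, h.1), by
    rw [mem_pullback, map_one]; exact h.2.symm⟩, rfl⟩
  left_inv e := by
    have h1 : e.1.1.1 = 1 := e.2
    apply Subtype.ext; apply Subtype.ext; apply Prod.ext
    · exact h1.symm
    · rfl
  right_inv h := rfl
  map_mul' _ _ := rfl

end Pullback

end Cfsg.Agent.Lib.Helper35
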