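import Mathlib
import Cfsg.Prelude.Def_Blocks
import Cfsg.Prelude.Def_BlockRank
import Cfsg.Agent.Lib.Helper97.BlockRank
import Cfsg.Agent.Lib.Helper78.HeightZero
import Cfsg.Agent.S4665
import Cfsg.Agent.S4666

/-!
# Blocks of `p`-regular rank one
-/

set_option autoImplicit false
set_option linter.unusedSectionVars false

namespace Cfsg.Agent.Lib.Helper35

open Cfsg Cfsg.Agent.Lib.Helper78 Cfsg.Agent.Lib.Helper74
open scoped ComplexConjugate

section rankone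

variable {K : Type*} [Group K] [Fintype K]
variable {M : Ideal AlgInt} {p : ℕ}

theorem not_dvd_orderOf_one'' [Fact p.Prime] : ¬ p ∣ orderOf (1 : K) := by
  rw [orderOf_one]; exact (Fact.out : p.Prime).one_lt.ne' ∘ Nat.dvd_one.1

/-- proportionality on regular elements in a block of rank one -/
theorem prop_of_blockRank_one [Fact p.Prime] {b : Set (IrrCharacter K)}
    (hl : blockRank p b = 1) {ψ₀ ψ : IrrCharacter K} (hψ₀ : ψ₀ ∈ b) (hψ : ψ ∈ b) (x : K)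
    (hx : ¬ p ∣ orderOf x) :
    (ψ : K → ℂ) x * (charDegree (ψ₀ : K → ℂ) : ℂ) =
      (charDegree (ψ : K → ℂ) : ℂ) * (ψ₀ : K → ℂ) x := by
  set S := (fun χ : IrrCharacter K => pRegularPart p (χ : K → ℂ)) '' b with hS
  let v₀ : Submodule.span ℂ S := ⟨pRegularPart p (ψ₀ : K → ℂ), Submodule.subset_span ⟨ψ₀, hψ₀, rfl⟩⟩
  let w : Submodule.span ℂ S := ⟨pRegularPart p (ψ : K → ℂ), Submodule.subset_span ⟨ψ, hψ, rfl⟩⟩
  have hv₀ : v₀ ≠ 0 := by
    intro h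
    have h1 : pRegularPart p (ψ₀ : K → ℂ) = 0 := congrArg Subtype.val h
    have h2 := congrFun h1 1
    rw [Cfsg.Agent.Lib.Helper97.pRegularPart_of_reg _ not_dvd_orderOf_one''] at h2
    exact irr_one_ne_zero ψ₀ h2
  obtain ⟨c, hc⟩ := (finrank_eq_one_iff_of_nonzero' v₀ hv₀).mp hl w
  have hc' : c • pRegularPart p (ψ₀ : K → ℂ) = pRegularPart p (ψ : K → ℂ) :=
    congrArg Subtype.val hc
  have h1 := congrFun hc' 1
  have h2 := congrFun hc' x
  simp only [Pi.smul_apply, smul_eq_mul] at h1 h2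
  rw [Cfsg.Agent.Lib.Helper97.pRegularPart_of_reg _ not_dvd_orderOf_one'',
    Cfsg.Agent.Lib.Helper97.pRegularPart_of_reg _ not_dvd_orderOf_one'', irr_one_eq,
    irr_one_eq] at h1
  rw [Cfsg.Agent.Lib.Helper97.pRegularPart_of_reg _ hx,
    Cfsg.Agent.Lib.Helper97.pRegularPart_of_reg _ hx] at h2
  rw [← h2, ← h1]; ring

open Classical in
/-- **Structure of a block of rank one** (contains S4675). -/
theorem rank_one_structure [Fact p.Prime] (hM : IsPModular p M) {b : Set (IrrCharacter K)}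
    (hb : IsPBlock M b) (hl : blockRank p b = 1) :
    ∃ (φ : K → ℂ) (d : IrrCharacter K → ℕ) (m : IrrCharacter K → ℤ) (g₀ : ℕ),
      (∀ x, φ x = ∑ ψ : IrrCharacter K, if ψ ∈ b then (m ψ : ℂ) * (ψ : K → ℂ) x else 0) ∧
      (∀ ψ ∈ b, ∀ x, ¬ p ∣ orderOf x → (ψ : K → ℂ) x = (d ψ : ℂ) * φ x) ∧
      (∀ ψ ∈ b, 0 < d ψ) ∧ 0 < g₀ ∧ φ 1 = g₀ ∧
      (∑ ψ : IrrCharacter K, (if ψ ∈ b then d ψ ^ 2 else 0) = p ^ blockDefect p b) ∧
      (∀ x, ∑ ψ : IrrCharacter K, (if ψ ∈ b then (d ψ : ℂ) * (ψ : K → ℂ) x else 0) =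
        (p ^ blockDefect p b : ℂ) * pRegularPart p φ x) := by
  have hMp := pmod_isPrime hM
  have hpp : p.Prime := Fact.out
  obtain ⟨ψ₀, hψ₀⟩ := IsPBlock.nonempty hMp hb
  set n : IrrCharacter K → ℕ := fun ψ => charDegree (ψ : K → ℂ) with hn
  have hn0 : ∀ ψ, n ψ ≠ 0 := fun ψ => (irr_charDegree_pos ψ).ne'
  set v : IrrCharacter K → ℤ := fun ψ => if ψ ∈ b then (n ψ : ℤ) else 0 with hv
  set I : Ideal ℤ := Ideal.span (Set.range v) with hI
  obtain ⟨a, ha⟩ := (IsPrincipalIdealRing.principal I).principal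
  set g₀ : ℕ := a.natAbs with hg₀
  have hI' : I = Ideal.span {(g₀ : ℤ)} := by rw [Int.span_natAbs]; exact ha
  have hdvd : ∀ ψ, (g₀ : ℤ) ∣ v ψ := by
    intro ψ
    rw [← Ideal.mem_span_singleton, ← hI']
    exact Ideal.subset_span ⟨ψ, rfl⟩
  have hg₀mem : (g₀ : ℤ) ∈ I := by rw [hI']; exact Ideal.subset_span rfl
  obtain ⟨c, hc⟩ := (Submodule.mem_span_range_iff_exists_fun ℤ).mp hg₀mem
  have hg₀pos : 0 < g₀ := by
    rw [Nat.pos_iff_ne_zero]
    intro h0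
    have h1 := hdvd ψ₀
    rw [h0, hv] at h1
    simp only [hψ₀, if_true, Nat.cast_zero, zero_dvd_iff, Nat.cast_eq_zero] at h1
    exact hn0 ψ₀ h1
  set d : IrrCharacter K → ℕ := fun ψ => n ψ / g₀ with hd
  have hnd : ∀ ψ ∈ b, n ψ = g₀ * d ψ := by
    intro ψ hψ
    have h1 := hdvd ψ
    rw [hv] at h1
    simp only [hψ, if_true] at h1
    exact (Nat.mul_div_cancel' (Int.natCast_dvd_natCast.mp h1)).symm
  have hdpos : ∀ ψ ∈ b, 0 < d ψ := by
    intro ψ hψ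
    rw [Nat.pos_iff_ne_zero]
    intro h0
    apply hn0 ψ
    rw [hnd ψ hψ, h0, mul_zero]
  set φ : K → ℂ := fun x => ∑ ψ : IrrCharacter K,
    if ψ ∈ b then (c ψ : ℂ) * (ψ : K → ℂ) x else 0 with hφ
  have hcsum : ∑ ψ : IrrCharacter K, (if ψ ∈ b then c ψ * (n ψ : ℤ) else 0) = g₀ := by
    rw [← hc]
    refine Finset.sum_congr rfl fun ψ _ => ?_
    rw [hv]
    by_cases hψ : ψ ∈ b <;> simp [hψ]
  have hcsumC : ∑ ψ : IrrCharacter K, (if ψ ∈ b then (c ψ : ℂ) * (n ψ : ℂ) else 0) = g₀ := by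
    have := congrArg (fun t : ℤ => (t : ℂ)) hcsum
    simp only [Int.cast_sum, Int.cast_natCast] at this
    rw [← this]
    refine Finset.sum_congr rfl fun ψ _ => ?_
    split_ifs <;> simp
  have hn₀C : (n ψ₀ : ℂ) ≠ 0 := by exact_mod_cast hn0 ψ₀
  have hg₀C : (g₀ : ℂ) ≠ 0 := by exact_mod_cast hg₀pos.ne'
  have hφreg : ∀ x, ¬ p ∣ orderOf x → φ x * (n ψ₀ : ℂ) = (g₀ : ℂ) * (ψ₀ : K → ℂ) x := by
    intro x hx
    rw [hφ, ← hcsumC]
    simp only
    rw [Finset.sum_mul, Finset.sum_mul]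
    refine Finset.sum_congr rfl fun ψ _ => ?_
    split_ifs with hψ
    · rw [mul_assoc, prop_of_blockRank_one hl hψ₀ hψ x hx]; ring
    · simp
  have hψreg : ∀ ψ ∈ b, ∀ x, ¬ p ∣ orderOf x → (ψ : K → ℂ) x = (d ψ : ℂ) * φ x := by
    intro ψ hψ x hx
    apply mul_right_cancel₀ hn₀C
    rw [prop_of_blockRank_one hl hψ₀ hψ x hx, mul_assoc, hφreg x hx]
    have : (charDegree (ψ : K → ℂ) : ℂ) = (g₀ : ℂ) * (d ψ : ℂ) := by
      have := hnd ψ hψ
      exact_mod_cast this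
    rw [this]; ring
  have hφ1 : φ 1 = g₀ := by
    rw [← hcsumC, hφ]
    simp only
    refine Finset.sum_congr rfl fun ψ _ => ?_
    rw [irr_one_eq]
  -- the sum of squares
  set S : ℕ := ∑ ψ : IrrCharacter K, (if ψ ∈ b then d ψ ^ 2 else 0) with hS
  set κ : ℂ := (Fintype.card K : ℂ)⁻¹ * ∑ x : K,
    (if ¬ p ∣ orderOf x then φ x * conj (φ x) else 0) with hκ
  have hSκ : (S : ℂ) * κ = 1 := by
    have h1 := Cfsg.Agent.Lib.Helper97.blockRank_eq hM b (fun ψ hψ => by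
      rw [← IsPBlock.eq_blockOf hMp hb hψ])
    rw [hl, Nat.cast_one] at h1
    rw [h1, hκ, mul_left_comm, Finset.mul_sum]
    congr 1
    refine Finset.sum_congr rfl fun x _ => ?_
    by_cases hx : p ∣ orderOf x
    · simp [hx]
    · rw [if_pos hx, if_pos hx, finsum_mem_irr, hS, Nat.cast_sum, Finset.sum_mul]
      refine Finset.sum_congr rfl fun ψ _ => ?_
      split_ifs with hψ
      · rw [hψreg ψ hψ x hx, map_mul, Complex.conj_natCast]; push_cast; ring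
      · simp
  set δ := blockDefect p b with hδ
  have hφcomb : ∃ n : IrrCharacter K → ℤ, ∀ g : K, φ g = ∑ᶠ ψ ∈ b, (n ψ : ℂ) * (ψ : K → ℂ) g :=
    ⟨c, fun g => (finsum_mem_irr b (fun ψ : IrrCharacter K => (c ψ : ℂ) * (ψ : K → ℂ) g)).symm⟩
  obtain ⟨N, hN⟩ := Cfsg.Agent.S4666.result p M hM b hb φ hφcomb
  have hN' : ∀ ψ' ∈ b, (N ψ' : ℂ) = (p ^ δ : ℂ) * (d ψ' : ℂ) * κ := by
    intro ψ' hψ'
    have h1 : (fun g => (p ^ δ : ℂ) * pRegularPart p φ g) =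
        ∑ ψ : IrrCharacter K, (if ψ ∈ b then (N ψ : ℂ) else 0) • (ψ : K → ℂ) := by
      funext g
      rw [hN g, finsum_mem_irr, Finset.sum_apply]
      refine Finset.sum_congr rfl fun ψ _ => ?_
      split_ifs <;> simp
    have h2 := classInner_sum_irr (fun ψ : IrrCharacter K => if ψ ∈ b then (N ψ : ℂ) else 0) ψ'
    rw [← h1, if_pos hψ'] at h2
    rw [← h2, hκ]
    unfold classInner
    have h3 : ∑ g : K, (p ^ δ : ℂ) * pRegularPart p φ g * conj ((ψ' : K → ℂ) g) =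
        (p ^ δ : ℂ) * (d ψ' : ℂ) *
          ∑ x : K, (if ¬ p ∣ orderOf x then φ x * conj (φ x) else 0) := by
      rw [Finset.mul_sum]
      refine Finset.sum_congr rfl fun x _ => ?_
      by_cases hx : p ∣ orderOf x
      · rw [Cfsg.Agent.Lib.Helper97.pRegularPart_of_sing _ hx]; simp [hx]
      · rw [Cfsg.Agent.Lib.Helper97.pRegularPart_of_reg _ hx, if_pos hx, hψreg ψ' hψ' x hx,
          map_mul, Complex.conj_natCast]
        ring
    rw [Nat.card_eq_fintype_card, h3]; ring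
  have hSN : ∀ ψ' ∈ b, (S : ℤ) * N ψ' = (p ^ δ : ℤ) * (d ψ' : ℤ) := by
    intro ψ' hψ'
    have h1 : ((S : ℤ) * N ψ' : ℂ) = ((p ^ δ : ℤ) * (d ψ' : ℤ) : ℂ) := by
      push_cast
      rw [hN' ψ' hψ']
      calc (S : ℂ) * ((p ^ δ : ℂ) * (d ψ' : ℂ) * κ) = (p ^ δ : ℂ) * (d ψ' : ℂ) * ((S : ℂ) * κ) := by
            ring
        _ = _ := by rw [hSκ, mul_one]
    exact_mod_cast h1
  have hcd : ∑ ψ : IrrCharacter K, (if ψ ∈ b then c ψ * (d ψ : ℤ) else 0) = 1 := by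
    have h1 : (g₀ : ℤ) * ∑ ψ : IrrCharacter K, (if ψ ∈ b then c ψ * (d ψ : ℤ) else 0) =
        (g₀ : ℤ) * 1 := by
      rw [mul_one]
      refine Eq.trans ?_ hcsum
      rw [Finset.mul_sum]
      refine Finset.sum_congr rfl fun ψ _ => ?_
      split_ifs with hψ
      · rw [hnd ψ hψ]; push_cast; ring
      · simp
    exact mul_left_cancel₀ (by exact_mod_cast hg₀pos.ne') h1
  have hSdvd : S ∣ p ^ δ := by
    have h1 : (S : ℤ) ∣ (p ^ δ : ℤ) := by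
      refine ⟨∑ ψ : IrrCharacter K, (if ψ ∈ b then c ψ * N ψ else 0), ?_⟩
      calc (p ^ δ : ℤ) = (p ^ δ : ℤ) *
            ∑ ψ : IrrCharacter K, (if ψ ∈ b then c ψ * (d ψ : ℤ) else 0) := by rw [hcd, mul_one]
        _ = _ := by
            rw [Finset.mul_sum, Finset.mul_sum]
            refine Finset.sum_congr rfl fun ψ _ => ?_
            split_ifs with hψ
            · rw [mul_left_comm, ← hSN ψ hψ]; ring
            · simp
    exact_mod_cast h1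
  have hpδ : (p ^ δ : ℂ) ≠ 0 := pow_ne_zero _ (by exact_mod_cast hpp.ne_zero)
  have hΦ : ∀ x, ∑ ψ : IrrCharacter K, (if ψ ∈ b then (d ψ : ℂ) * (ψ : K → ℂ) x else 0) =
      (S : ℂ) * pRegularPart p φ x := by
    intro x
    apply mul_left_cancel₀ hpδ
    rw [mul_left_comm, hN x, finsum_mem_irr, Finset.mul_sum, Finset.mul_sum]
    refine Finset.sum_congr rfl fun ψ _ => ?_
    split_ifs with hψ
    · have h1 : ((S : ℤ) * N ψ : ℂ) = ((p ^ δ : ℤ) * (d ψ : ℤ) : ℂ) := by exact_mod_cast hSN ψ hψ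
      push_cast at h1
      rw [← mul_assoc, ← mul_assoc, h1]
    · simp
  -- `p ^ a` divides `S * g₀`
  set Φ : K → ℂ := fun x => ∑ ψ : IrrCharacter K,
    (if ψ ∈ b then (d ψ : ℂ) * (ψ : K → ℂ) x else 0) with hΦdef
  have hΦcomb : ∃ n : IrrCharacter K → ℤ, ∀ g : K, Φ g = ∑ᶠ ψ ∈ b, (n ψ : ℂ) * (ψ : K → ℂ) g :=
    ⟨fun ψ => (d ψ : ℤ), fun g => by
      rw [finsum_mem_irr b (fun ψ : IrrCharacter K => (((d ψ : ℤ) : ℂ)) * (ψ : K → ℂ) g)]
      simp only [hΦdef, Int.cast_natCast]⟩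
  have hΦreg : pRegularPart p Φ = Φ := by
    funext x
    by_cases hx : p ∣ orderOf x
    · rw [Cfsg.Agent.Lib.Helper97.pRegularPart_of_sing _ hx]
      show 0 = ∑ ψ : IrrCharacter K, (if ψ ∈ b then (d ψ : ℂ) * (ψ : K → ℂ) x else 0)
      rw [hΦ x, Cfsg.Agent.Lib.Helper97.pRegularPart_of_sing _ hx, mul_zero]
    · rw [Cfsg.Agent.Lib.Helper97.pRegularPart_of_reg _ hx]
  obtain ⟨k, hk⟩ := Cfsg.Agent.S4665.result p M hM b hb Φ hΦcomb (by rw [hΦreg]; exact hΦcomb)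
  have hΦ1 : Φ 1 = (S : ℂ) * (g₀ : ℂ) := by
    show ∑ ψ : IrrCharacter K, (if ψ ∈ b then (d ψ : ℂ) * (ψ : K → ℂ) 1 else 0) = _
    rw [hΦ 1, Cfsg.Agent.Lib.Helper97.pRegularPart_of_reg _ not_dvd_orderOf_one'', hφ1]
  set a' := (Nat.card K).factorization p with ha'
  have hdvd2 : p ^ a' ∣ S * g₀ := by
    have h1 : ((S * g₀ : ℕ) : ℤ) = (p ^ a' : ℕ) * k := by
      have h2 : (((S * g₀ : ℕ) : ℤ) : ℂ) = (((p ^ a' : ℕ) * k : ℤ) : ℂ) := by
        push_cast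
        rw [← hΦ1, hk]
      exact_mod_cast h2
    exact Int.natCast_dvd_natCast.mp ⟨k, h1⟩
  have hSpos : 0 < S := Nat.pos_of_dvd_of_pos hSdvd (pow_pos hpp.pos _)
  obtain ⟨ψ₁, hψ₁, hψ₁e⟩ := exists_minDeg (p := p) (IsPBlock.nonempty hMp hb)
  have hg₀le : g₀.factorization p ≤ minDeg p b := by
    rw [← hψ₁e]
    have h1 : g₀ ∣ charDegree (ψ₁ : K → ℂ) := ⟨d ψ₁, hnd ψ₁ hψ₁⟩
    exact (Nat.factorization_le_iff_dvd hg₀pos.ne' (hn0 ψ₁)).mpr h1 p
  have hfac : a' ≤ S.factorization p + g₀.factorization p := by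
    have h1 := (Nat.factorization_le_iff_dvd (pow_pos hpp.pos _).ne'
      (Nat.mul_pos hSpos hg₀pos).ne').mpr hdvd2 p
    rw [Nat.factorization_mul hSpos.ne' hg₀pos.ne', hpp.factorization_pow] at h1
    simpa using h1
  obtain ⟨j, hj, hSj⟩ := (Nat.dvd_prime_pow hpp).mp hSdvd
  have hSδ : S = p ^ δ := by
    rw [hSj] at hfac ⊢
    rw [hpp.factorization_pow] at hfac
    simp only [Finsupp.single_eq_same] at hfac
    have h2 : δ = a' - minDeg p b := blockDefect_eq p b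
    have h3 : j = δ := by omega
    rw [h3]
  refine ⟨φ, d, c, g₀, fun x => rfl, hψreg, hdpos, hg₀pos, hφ1, hSδ, fun x => ?_⟩
  rw [hΦ x, hSδ]; push_cast; rfl

end rankone

end Cfsg.Agent.Lib.Helper35
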