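import Mathlib
import Cfsg.Prelude.Def_Blocks
import Cfsg.Prelude.Def_BlockRank
import Cfsg.Agent.Lib.Helper35.KleinA
import Cfsg.Agent.Lib.Helper35.KleinB
import Cfsg.Agent.Lib.Helper78.DefectOneTwo
import Cfsg.Agent.S0912
import Cfsg.Agent.S4733
import Cfsg.Agent.S4494
import Cfsg.Agent.S4428
import Cfsg.Agent.S4710

/-!
# `2`-blocks of defect two: subsections at involutions
-/

set_option autoImplicit false
set_option linter.unusedSectionVars false

namespace Cfsg.Agent.Lib.Helper35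

open Cfsg Cfsg.Agent.Lib.Helper78 Cfsg.Agent.Lib.Helper74 Cfsg.Agent.Lib.Helper4
open Cfsg.Agent.Lib.Helper97 (regProj regProj_apply regProj_eq_pRegularPart pRegularPart_of_reg
  pRegularPart_of_sing)
open scoped ComplexConjugate

section rank

variable {H : Type*} [Group H] [Fintype H]
variable {M : Ideal AlgInt} {p : ℕ}

theorem blockRank_pos [Fact p.Prime] {b : Set (IrrCharacter H)} (hb : b.Nonempty) :
    0 < blockRank p b := by
  obtain ⟨ψ, hψ⟩ := hb
  unfold blockRank
  rw [Module.finrank_pos_iff_exists_ne_zero]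
  refine ⟨⟨pRegularPart p (ψ : H → ℂ), Submodule.subset_span ⟨ψ, hψ, rfl⟩⟩, ?_⟩
  intro h
  have h1 : pRegularPart p (ψ : H → ℂ) = 0 := congrArg Subtype.val h
  have h2 := congrFun h1 1
  rw [pRegularPart_of_reg _ not_dvd_orderOf_one''] at h2
  exact irr_one_ne_zero ψ h2

/-- a `2`-block of defect one has rank one -/
theorem blockRank_of_defect_one (hM : IsPModular 2 M) {b : Set (IrrCharacter H)}
    (hb : IsPBlock M b) (hd : blockDefect 2 b = 1) : blockRank 2 b = 1 := by
  have : Fact (Nat.Prime 2) := ⟨Nat.prime_two⟩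
  have hMp := pmod_isPrime hM
  have h1 := Cfsg.Agent.S4494.result 2 M hM b hb
  obtain ⟨h2, -, h3⟩ := Cfsg.Agent.S4733.result 2 M hM b hb
  have h4 := blockRank_pos (p := 2) (IsPBlock.nonempty hMp hb)
  rw [hd] at h1 h3
  have h5 : Nat.card b ≠ blockRank 2 b := fun h => by simpa using h3.mpr h
  have h6 : 2 ^ (2 * 1) + 4 = 8 := by norm_num
  omega

/-- a `2`-block of defect two of a group with a central involution has rank one -/
theorem blockRank_of_central_involution (hM : IsPModular 2 M) {b : Set (IrrCharacter H)}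
    (hb : IsPBlock M b) (hd : blockDefect 2 b = 2) {u : H} (hu : orderOf u = 2)
    (huc : u ∈ Subgroup.center H) : blockRank 2 b = 1 := by
  classical
  have : Fact (Nat.Prime 2) := ⟨Nat.prime_two⟩
  have hMp := pmod_isPrime hM
  set Z : Subgroup H := Subgroup.zpowers u with hZ
  have hZc : Z ≤ Subgroup.center H := by
    rw [hZ, Subgroup.zpowers_le]; exact huc
  have hZn : Z.Normal := ⟨fun z hz g => by
    have h1 := Subgroup.mem_center_iff.mp (hZc hz) g
    rw [h1, mul_inv_cancel_right]; exact hz⟩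
  have := Fintype.ofFinite (H ⧸ Z)
  have hZcard : Nat.card Z = 2 := by rw [hZ, Nat.card_zpowers, hu]
  have hZp : IsPGroup 2 Z := IsPGroup.of_card (n := 1) (by rw [hZcard, pow_one])
  rw [← blockRank_quotSet Z hM hZc hZp hb]
  apply blockRank_of_defect_one hM (isPBlock_quotSet_central Z hM hZc hZp hb)
  obtain ⟨Q, hQ⟩ := Cfsg.Agent.Lib.Helper16.exists_isDefectGroup hM hb
  have hZQ : Z ≤ Q := le_trans (le_sSup (show Z ∈ {N : Subgroup H | N.Normal ∧ IsPGroup 2 N} from
    ⟨hZn, hZp⟩)) (Cfsg.Agent.S0912.result 2 M hM b hb Q hQ)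
  have h1 := card_of_isDefectGroup hM hb hQ
  have h2 := card_of_isDefectGroup hM (isPBlock_quotSet_central Z hM hZc hZp hb)
    ((isDefectGroup_quotSet_central Z hM hZc hZp hb _).mpr ⟨Q, hQ, rfl⟩)
  have h3 := card_map_mk_mul Z hZQ
  rw [h1, h2, hZcard, hd] at h3
  have h4 : 2 ^ blockDefect 2 (quotSet Z b) = 2 ^ 1 := by omega
  exact Nat.pow_right_injective (le_refl 2) h4

end rank

section column

variable {G : Type*} [Group G] [Fintype G]
variable {M : Ideal AlgInt}

/-- generalized decomposition numbers at an involution are integers -/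
theorem exists_int_classInner_tw {u : G} (hu : orderOf u = 2) (χ : IrrCharacter G)
    (ψ : IrrCharacter (Cen u)) : ∃ a : ℤ, classInner (tw u (χ : G → ℂ)) (ψ : Cen u → ℂ) = a := by
  rw [classInner_tw]
  obtain ⟨n, hn⟩ := IsCharacter.classInner_irr_nat
    (IsCharacter.restrict (IrrCharacter.isCharacter χ) (Cen u)) ψ
  have hn' : classInner (fun c : Cen u => (χ : G → ℂ) (c : G)) (ψ : Cen u → ℂ) = (n : ℂ) := hn
  rw [hn']
  set r : ℂ := (ψ : Cen u → ℂ) (cenSelf u) / (ψ : Cen u → ℂ) 1 with hr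
  have h1 := irr_central_mul ψ (cenSelf_central u) (cenSelf u)
  have h2 : cenSelf u * cenSelf u = 1 := by
    apply Subtype.ext
    show u * u = 1
    rw [← sq, ← hu, pow_orderOf_eq_one]
  rw [h2, ← hr] at h1
  have h3 : r * r = 1 := by
    have h4 : (ψ : Cen u → ℂ) (cenSelf u) = r * (ψ : Cen u → ℂ) 1 := by
      rw [hr, div_mul_cancel₀ _ (irr_one_ne_zero ψ)]
    rw [h4, ← mul_assoc] at h1
    exact (mul_right_cancel₀ (irr_one_ne_zero ψ) (by rw [one_mul]; exact h1)).symm
  rcases mul_self_eq_one_iff.mp h3 with h | h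
  · exact ⟨n, by rw [h]; simp⟩
  · exact ⟨-n, by rw [h]; simp⟩

open Classical in
/-- **The column of a subsection at an involution** for a `2`-block of defect two. -/
theorem exists_column (hM : IsPModular 2 M) {B : Set (IrrCharacter G)}
    (hdB : blockDefect 2 B = 2) {u : G} (hu : orderOf u = 2)
    {e : Set (IrrCharacter (Cen u))} (he : IsInducedBlock M (Cen u) e B)
    (hde : blockDefect 2 e = 2) :
    ∃ (φ : Cen u → ℂ) (D : IrrCharacter G → ℤ) (d : IrrCharacter (Cen u) → ℕ)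
      (m : IrrCharacter (Cen u) → ℤ),
      (∀ x, φ x = ∑ ψ : IrrCharacter (Cen u), if ψ ∈ e then (m ψ : ℂ) * (ψ : Cen u → ℂ) x else 0) ∧
      (∀ x, ∑ ψ : IrrCharacter (Cen u), (if ψ ∈ e then (d ψ : ℂ) * (ψ : Cen u → ℂ) x else 0) =
        4 * pRegularPart 2 φ x) ∧ φ 1 ≠ 0 ∧
      (∀ χ : IrrCharacter G, ∀ s : Cen u, ¬ 2 ∣ orderOf s →
        blockPart e (tw u (χ : G → ℂ)) s = (D χ : ℂ) * φ s) ∧
      (∀ χ ∈ B, D χ = 1 ∨ D χ = -1) ∧ Nat.card B = 4 := by
  have : Fact (Nat.Prime 2) := ⟨Nat.prime_two⟩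
  have hMp := pmod_isPrime hM
  have hB : IsPBlock M B := he.2.1
  have heb : IsPBlock M e := he.1
  have hl : blockRank 2 e = 1 := by
    apply blockRank_of_central_involution hM heb hde (u := cenSelf u)
    · rw [← Subgroup.orderOf_coe]; exact hu
    · rw [Subgroup.mem_center_iff]; exact cenSelf_central u
  obtain ⟨φ, d, m, g₀, h1, h2, h3, h4, h5, h6, h7⟩ := rank_one_structure hM heb hl
  choose a ha using fun (χ : IrrCharacter G) (ψ : IrrCharacter (Cen u)) =>
    exists_int_classInner_tw hu χ ψ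
  set D : IrrCharacter G → ℤ := fun χ => ∑ ψ : IrrCharacter (Cen u),
    if ψ ∈ e then a χ ψ * (d ψ : ℤ) else 0 with hD
  have hφ1 : φ 1 ≠ 0 := by rw [h5]; exact_mod_cast h4.ne'
  have hcol : ∀ χ : IrrCharacter G, ∀ s : Cen u, ¬ 2 ∣ orderOf s →
      blockPart e (tw u (χ : G → ℂ)) s = (D χ : ℂ) * φ s := by
    intro χ s hs
    rw [blockPart_eq_sum_ite, hD]
    simp only
    rw [Int.cast_sum, Finset.sum_mul]
    refine Finset.sum_congr rfl fun ψ _ => ?_
    split_ifs with hψ
    · rw [ha, h2 ψ hψ s hs]; push_cast; ring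
    · simp
  have hne : ∀ χ ∈ B, D χ ≠ 0 := by
    intro χ hχ h0
    have hht : blockHeight 2 B (χ : G → ℂ) = 0 := by
      have := ((Cfsg.Agent.S4710.result 2 M hM B hB 2 hdB).2 χ hχ).2 (le_refl 2)
      omega
    obtain ⟨y, hy, hy'⟩ := Cfsg.Agent.S4428.result 2 M hM B hB χ hχ hht u ⟨1, by rw [hu, pow_one]⟩ e he
    apply hy'
    have := hcol χ y hy
    rw [h0, Int.cast_zero, zero_mul] at this
    exact this
  have hsum : ∑ χ ∈ Finset.univ.filter (· ∈ B), D χ ^ 2 = 4 := by
    have h8 := Cfsg.Agent.Lib.Helper97.sum_regProj_tw_sq hM u ⟨1, by rw [hu, pow_one]⟩ he 1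
      not_dvd_orderOf_one''
    have h9 : ∀ χ : IrrCharacter G, regProj 2 e (tw u (χ : G → ℂ)) 1 = (D χ : ℂ) * φ 1 := by
      intro χ
      rw [regProj_eq_pRegularPart, pRegularPart_of_reg _ not_dvd_orderOf_one'',
        hcol χ 1 not_dvd_orderOf_one'']
    simp only [h9] at h8
    have h10 : ∀ η ∈ Finset.univ.filter (· ∈ e), (η : Cen u → ℂ) 1 * conj ((η : Cen u → ℂ) 1) =
        ((d η ^ 2 : ℕ) : ℂ) * (φ 1 * conj (φ 1)) := by
      intro η hη
      rw [h2 η (Finset.mem_filter.mp hη).2 1 not_dvd_orderOf_one'', map_mul, Complex.conj_natCast]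
      push_cast; ring
    have h6' : ∑ ψ ∈ Finset.univ.filter (· ∈ e), d ψ ^ 2 = 4 := by
      rw [Finset.sum_filter, h6, hde]; norm_num
    rw [Finset.sum_congr rfl h10, ← Finset.sum_mul, ← Nat.cast_sum, h6'] at h8
    have h11 : ∀ χ : IrrCharacter G, (D χ : ℂ) * φ 1 * conj ((D χ : ℂ) * φ 1) =
        ((D χ ^ 2 : ℤ) : ℂ) * (φ 1 * conj (φ 1)) := by
      intro χ
      rw [map_mul, map_intCast]; push_cast; ring
    simp only [h11] at h8
    rw [← Finset.sum_mul, ← Int.cast_sum] at h8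
    have h12 : φ 1 * conj (φ 1) ≠ 0 := mul_ne_zero hφ1 ((map_ne_zero _).mpr hφ1)
    have h13 := mul_right_cancel₀ h12 h8
    have h14 : ((∑ χ ∈ Finset.univ.filter (· ∈ B), D χ ^ 2 : ℤ) : ℂ) = ((4 : ℤ) : ℂ) := by
      rw [h13]; norm_num
    exact_mod_cast h14
  have hcard2 : 2 ≤ Nat.card B := two_le_card_of_defect_pos hM hB (by omega)
  have hcardF : Nat.card B = (Finset.univ.filter (· ∈ B)).card := by
    rw [Nat.card_eq_fintype_card, Fintype.card_subtype]
  have hsq : ∀ χ ∈ B, D χ ^ 2 = 1 := by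
    intro χ hχ
    by_contra hcon
    have h8 : 4 ≤ D χ ^ 2 := by
      have h9 := hne χ hχ
      have h10 : D χ ≤ -2 ∨ D χ = -1 ∨ D χ = 1 ∨ 2 ≤ D χ := by omega
      rcases h10 with h | h | h | h
      · nlinarith
      · exfalso; apply hcon; rw [h]; norm_num
      · exfalso; apply hcon; rw [h]; norm_num
      · nlinarith
    -- another member
    obtain ⟨χ', hχ', hne'⟩ : ∃ χ' ∈ Finset.univ.filter (· ∈ B), χ' ≠ χ := by
      apply Finset.exists_mem_ne
      rw [← hcardF]; omega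
    have hχ'B : χ' ∈ B := (Finset.mem_filter.mp hχ').2
    have h9 : D χ ^ 2 + D χ' ^ 2 ≤ ∑ χ ∈ Finset.univ.filter (· ∈ B), D χ ^ 2 := by
      rw [← Finset.sum_pair (f := fun χ => D χ ^ 2) hne'.symm]
      apply Finset.sum_le_sum_of_subset_of_nonneg
      · intro x hx
        rw [Finset.mem_insert, Finset.mem_singleton] at hx
        rcases hx with rfl | rfl
        · exact Finset.mem_filter.mpr ⟨Finset.mem_univ _, hχ⟩
        · exact hχ'
      · intro x _ _; positivity
    have h10 : 0 < D χ' ^ 2 := by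
      have := hne χ' hχ'B
      positivity
    omega
  refine ⟨φ, D, d, m, h1, fun x => ?_, hφ1, hcol, fun χ hχ => ?_, ?_⟩
  · rw [h7 x, hde]; norm_num
  · have h8 := hsq χ hχ
    have h9 : (D χ - 1) * (D χ + 1) = 0 := by ring_nf; rw [h8]; ring
    rcases mul_eq_zero.mp h9 with h | h
    · left; omega
    · right; omega
  · rw [hcardF]
    have h8 : ∑ χ ∈ Finset.univ.filter (· ∈ B), D χ ^ 2 =
        ∑ χ ∈ Finset.univ.filter (· ∈ B), (1 : ℤ) :=
      Finset.sum_congr rfl fun χ hχ => hsq χ (Finset.mem_filter.mp hχ).2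
    rw [hsum] at h8
    simp at h8
    omega

/-- **A `2`-block of defect two has exactly four irreducible characters.** -/
theorem card_eq_four_of_defect_two (hM : IsPModular 2 M) {B : Set (IrrCharacter G)}
    (hB : IsPBlock M B) (hdB : blockDefect 2 B = 2) : Nat.card B = 4 := by
  have : Fact (Nat.Prime 2) := ⟨Nat.prime_two⟩
  obtain ⟨y, hy, b, hb, hbd⟩ := exists_major_subsection hM hB (by omega)
  obtain ⟨_, _, _, _, _, _, _, _, _, h⟩ := exists_column hM hdB hy hb (by rw [hbd, hdB])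
  exact h

end column

end Cfsg.Agent.Lib.Helper35
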