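import Mathlib
import Cfsg.Prelude.Def_Blocks
import Cfsg.Prelude.Def_BlockRank
import Cfsg.Prelude.Def_BlockLocal
import Cfsg.Agent.Lib.Helper35.KleinC

/-!
# Perfect isometries between `2`-blocks of defect two: the abstract part
-/

set_option autoImplicit false
set_option linter.unusedSectionVars false

namespace Cfsg.Agent.Lib.Helper35

open Cfsg Cfsg.Agent.Lib.Helper78 Cfsg.Agent.Lib.Helper74 Cfsg.Agent.Lib.Helper4
open Cfsg.Agent.Lib.Helper97 (regProj regProj_apply regProj_eq_pRegularPart pRegularPart_of_reg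
  pRegularPart_of_sing)
open scoped ComplexConjugate

universe u v

section lemmaP

variable {H : Type*} [Group H] [Fintype H]
variable {M : Ideal AlgInt} {p : ℕ}

/-- **Lemma P.** A local-integral combination of characters vanishing on the `p`-singular elements has values
divisible by the order of the centralizer. -/
theorem memLocalRing_div_card_centralizer [Fact p.Prime] (hM : IsPModular p M) {ι : Type*}
    (S : Finset ι) (n : ι → ℂ) (f : ι → H → ℂ) (hf : ∀ i ∈ S, IsCharacter H (f i))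
    (hn : ∀ i ∈ S, MemLocalRing M (n i)) (Φ : H → ℂ) (hΦ : ∀ x, Φ x = ∑ i ∈ S, n i * f i x)
    (hvan : ∀ x, p ∣ orderOf x → Φ x = 0) (s : H) :
    MemLocalRing M (Φ s / (Nat.card (Subgroup.centralizer ({s} : Set H)) : ℂ)) := by
  classical
  have hMp := pmod_isPrime hM
  have hpp : p.Prime := Fact.out
  by_cases hs : p ∣ orderOf s
  · rw [hvan s hs, zero_div]; exact memLocalRing_zero hMp
  set C : Subgroup H := Subgroup.centralizer ({s} : Set H) with hC
  let Q0 : Sylow p C := default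
  set Q : Subgroup H := (Q0 : Subgroup C).map C.subtype with hQ
  have hQC : ∀ u ∈ Q, u * s = s * u := by
    rintro _ ⟨u, _, rfl⟩
    have := Subgroup.mem_centralizer_iff.mp u.2 s rfl
    exact this.symm
  have hQp : IsPGroup p Q := Q0.2.map _
  have hcardQ : Nat.card Q = Nat.card (Q0 : Subgroup C) :=
    Subgroup.card_map_of_injective C.subtype_injective
  have hcardC : Nat.card C = Nat.card Q * (Q0 : Subgroup C).index := by
    rw [hcardQ, Subgroup.card_mul_index]
  have hsum : ∑ u : H, (if u ∈ Q then Φ (s * u) else 0) = Φ s := by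
    rw [Finset.sum_eq_single (1 : H)]
    · rw [if_pos (one_mem Q), mul_one]
    · intro u _ hu1
      split_ifs with hu
      · apply hvan
        obtain ⟨k, hk⟩ := hQp ⟨u, hu⟩
        have hk' : u ^ p ^ k = 1 := by simpa using congrArg Subtype.val hk
        obtain ⟨j, _, hj⟩ := (Nat.dvd_prime_pow hpp).mp (orderOf_dvd_of_pow_eq_one hk')
        exact dvd_orderOf_mul_of_regular hpp hs ⟨j, hj⟩ hu1 (hQC u hu)
      · rfl
    · intro h; exact absurd (Finset.mem_univ _) h
  have h1 : MemLocalRing M ((Nat.card Q : ℂ)⁻¹ * Φ s) := by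
    have h2 : (Nat.card Q : ℂ)⁻¹ * Φ s = ∑ i ∈ S, n i *
        ((Nat.card Q : ℂ)⁻¹ * ∑ u : H, if u ∈ Q then f i (s * u) else 0) := by
      rw [← hsum]
      simp only [hΦ]
      rw [Finset.mul_sum]
      have : ∀ u : H, (Nat.card Q : ℂ)⁻¹ * (if u ∈ Q then ∑ i ∈ S, n i * f i (s * u) else 0) =
          ∑ i ∈ S, n i * ((Nat.card Q : ℂ)⁻¹ * (if u ∈ Q then f i (s * u) else 0)) := by
        intro u
        split_ifs
        · rw [Finset.mul_sum]
          exact Finset.sum_congr rfl fun i _ => by ring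
        · simp
      rw [Finset.sum_congr rfl fun u _ => this u, Finset.sum_comm]
      refine Finset.sum_congr rfl fun i _ => ?_
      rw [← Finset.mul_sum, ← Finset.mul_sum]
    rw [h2]
    apply MemLocalRing.sum hMp
    intro i hi
    exact MemLocalRing.mul hMp (hn i hi)
      (memLocalRing_of_isIntegral hMp (isIntegral_avg_char (hf i hi) Q s hQC))
  have h3 : MemLocalRing M (((Q0 : Subgroup C).index : ℂ)⁻¹) :=
    memLocalRing_inv_natCast hM Q0.not_dvd_index
  have h4 := MemLocalRing.mul hMp h1 h3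
  convert h4 using 1
  rw [hcardC]
  push_cast
  rw [div_eq_mul_inv, mul_inv]
  ring

end lemmaP

section kernel

variable {X : Type*} [Group X] [Fintype X]

open Classical in
/-- If `l(𝔅) = k(𝔅) - 1`, the relations among the restrictions to regular elements are proportional. -/
theorem proportional_of_rank {p : ℕ} {𝔅 : Set (IrrCharacter X)}
    (hcard : Nat.card 𝔅 = blockRank p 𝔅 + 1) (D D' : IrrCharacter X → ℂ)
    (hD : ∀ x : X, ¬ p ∣ orderOf x →
      ∑ χ : IrrCharacter X, (if χ ∈ 𝔅 then D χ * (χ : X → ℂ) x else 0) = 0)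
    (hD' : ∀ x : X, ¬ p ∣ orderOf x →
      ∑ χ : IrrCharacter X, (if χ ∈ 𝔅 then D' χ * (χ : X → ℂ) x else 0) = 0)
    (hne : ∃ χ ∈ 𝔅, D χ ≠ 0) : ∃ t : ℂ, ∀ χ ∈ 𝔅, D' χ = t * D χ := by
  let w : 𝔅 → X → ℂ := fun χ => pRegularPart p ((χ : IrrCharacter X) : X → ℂ)
  let L : (𝔅 → ℂ) →ₗ[ℂ] (X → ℂ) := Fintype.linearCombination ℂ w
  have hrange : Module.finrank ℂ (LinearMap.range L) = blockRank p 𝔅 := by
    unfold blockRank
    have : LinearMap.range L = Submodule.span ℂ
        ((fun χ : IrrCharacter X => pRegularPart p (χ : X → ℂ)) '' 𝔅) := by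
      rw [Fintype.range_linearCombination, Set.image_eq_range]
    rw [this]
  have hrn := LinearMap.finrank_range_add_finrank_ker L
  have hdim : Module.finrank ℂ (𝔅 → ℂ) = Nat.card 𝔅 := by
    rw [Module.finrank_fintype_fun_eq_card, Nat.card_eq_fintype_card]
  have hker : Module.finrank ℂ (LinearMap.ker L) = 1 := by omega
  have hmem : ∀ E : IrrCharacter X → ℂ, (∀ x : X, ¬ p ∣ orderOf x →
      ∑ χ : IrrCharacter X, (if χ ∈ 𝔅 then E χ * (χ : X → ℂ) x else 0) = 0) →
      (fun χ : 𝔅 => E χ) ∈ LinearMap.ker L := by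
    intro E hE
    rw [LinearMap.mem_ker]
    funext x
    simp only [L, Fintype.linearCombination_apply, Finset.sum_apply, Pi.smul_apply, smul_eq_mul,
      Pi.zero_apply, w]
    by_cases hx : p ∣ orderOf x
    · apply Finset.sum_eq_zero
      intro χ _
      rw [pRegularPart_of_sing _ hx, mul_zero]
    · rw [← hE x hx, ← Finset.sum_filter]
      rw [Finset.sum_subtype (Finset.univ.filter (· ∈ 𝔅)) (p := (· ∈ 𝔅)) (by simp)
        (fun χ => E χ * (χ : X → ℂ) x)]
      refine Finset.sum_congr rfl fun χ _ => ?_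
      rw [pRegularPart_of_reg _ hx]
  obtain ⟨χ₀, hχ₀, hχ₀'⟩ := hne
  have hv0 : (⟨fun χ : 𝔅 => D χ, hmem D hD⟩ : LinearMap.ker L) ≠ 0 := by
    intro h
    have h1 := congrArg Subtype.val h
    exact hχ₀' (congrFun h1 ⟨χ₀, hχ₀⟩)
  obtain ⟨t, ht⟩ := (finrank_eq_one_iff_of_nonzero' _ hv0).mp hker ⟨fun χ : 𝔅 => D' χ, hmem D' hD'⟩
  refine ⟨t, fun χ hχ => ?_⟩
  have h1 := congrArg Subtype.val ht
  exact (congrFun h1 ⟨χ, hχ⟩).symm

end kernel

section abstract

open Classical in
/-- A sign vector on `𝔅` orthogonal to the columns of the `2`-regular elements. -/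
def IsCol {X : Type u} [Group X] [Fintype X] (𝔅 : Set (IrrCharacter X))
    (D : IrrCharacter X → ℤ) : Prop :=
  (∀ χ ∈ 𝔅, D χ = 1 ∨ D χ = -1) ∧ ∀ x : X, ¬ 2 ∣ orderOf x →
    ∑ χ : IrrCharacter X, (if χ ∈ 𝔅 then (D χ : ℂ) * (χ : X → ℂ) x else 0) = 0

/-- The columns at `2`-singular elements are local-integral combinations of sign vectors. -/
def KData (M : Ideal AlgInt) (X : Type u) [Group X] [Fintype X] (𝔅 : Set (IrrCharacter X)) : Prop :=
  ∀ x : X, 2 ∣ orderOf x → ∃ (ι : Type u) (_ : Fintype ι) (D : ι → IrrCharacter X → ℤ) (β : ι → ℂ),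
    (∀ i, IsCol 𝔅 (D i)) ∧ (∀ χ ∈ 𝔅, (χ : X → ℂ) x = ∑ i, (D i χ : ℂ) * β i) ∧
    (∀ i, MemLocalRing M (β i)) ∧
    ∀ i, MemLocalRing M (4 * β i / (Nat.card (Subgroup.centralizer ({x} : Set X)) : ℂ))

variable {G : Type u} [Group G] [Fintype G] {H : Type u} [Group H] [Fintype H]
variable {M : Ideal AlgInt}

open Classical in
theorem kernel_eq_sum (c : Set (IrrCharacter H)) (I : IrrCharacter H → IrrCharacter G)
    (ε : IrrCharacter H → ℤ) (x : G) (y : H) :
    signedBijectionKernel c I ε x y = ∑ η ∈ Finset.univ.filter (· ∈ c),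
      (ε η : ℂ) * (I η : G → ℂ) x * (η : H → ℂ) y := by
  unfold signedBijectionKernel
  rw [finsum_mem_irr c (fun η => (ε η : ℂ) * (I η : G → ℂ) x * (η : H → ℂ) y), Finset.sum_filter]

open Classical in
/-- **Abstract criterion for a perfect isometry** between two blocks with sign-vector columns. -/
theorem isPerfectIsometry_of_kdata (hM : IsPModular 2 M) {B : Set (IrrCharacter G)}
    {c : Set (IrrCharacter H)} (hG : KData M G B) (hH : KData M H c)
    (I : IrrCharacter H → IrrCharacter G) (ε : IrrCharacter H → ℤ) (hI : Set.BijOn I c B)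
    (hε : ∀ η ∈ c, ε η = 1 ∨ ε η = -1)
    (hA : ∀ D' : IrrCharacter H → ℤ, IsCol c D' → ∀ x : G, ¬ 2 ∣ orderOf x →
      ∑ η ∈ Finset.univ.filter (· ∈ c), (ε η : ℂ) * (D' η : ℂ) * (I η : G → ℂ) x = 0)
    (hB : ∀ D : IrrCharacter G → ℤ, IsCol B D → ∀ y : H, ¬ 2 ∣ orderOf y →
      ∑ η ∈ Finset.univ.filter (· ∈ c), (ε η : ℂ) * (D (I η) : ℂ) * (η : H → ℂ) y = 0)
    (hC : ∀ (D : IrrCharacter G → ℤ) (D' : IrrCharacter H → ℤ), IsCol B D → IsCol c D' →
      (4 : ℤ) ∣ ∑ η ∈ Finset.univ.filter (· ∈ c), ε η * D (I η) * D' η) :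
    IsPerfectIsometry 2 M c B I ε := by
  have : Fact (Nat.Prime 2) := ⟨Nat.prime_two⟩
  have hMp := pmod_isPrime hM
  refine ⟨hI, hε, ?_⟩
  set cF : Finset (IrrCharacter H) := Finset.univ.filter (· ∈ c) with hcF
  have hmem : ∀ η ∈ cF, η ∈ c := fun η hη => (Finset.mem_filter.mp hη).2
  -- separation
  have sep1 : ∀ (x : G) (y : H), ¬ 2 ∣ orderOf x → 2 ∣ orderOf y →
      signedBijectionKernel c I ε x y = 0 := by
    intro x y hx hy
    obtain ⟨ι, _, D, β, hcol, hval, -, -⟩ := hH y hy
    rw [kernel_eq_sum]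
    have h1 : ∀ η ∈ cF, (ε η : ℂ) * (I η : G → ℂ) x * (η : H → ℂ) y =
        ∑ i, β i * ((ε η : ℂ) * (D i η : ℂ) * (I η : G → ℂ) x) := by
      intro η hη
      rw [hval η (hmem η hη), Finset.mul_sum]
      exact Finset.sum_congr rfl fun i _ => by ring
    rw [Finset.sum_congr rfl h1, Finset.sum_comm]
    apply Finset.sum_eq_zero
    intro i _
    rw [← Finset.mul_sum, hA (D i) (hcol i) x hx, mul_zero]
  have sep2 : ∀ (x : G) (y : H), 2 ∣ orderOf x → ¬ 2 ∣ orderOf y →
      signedBijectionKernel c I ε x y = 0 := by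
    intro x y hx hy
    obtain ⟨ι, _, D, β, hcol, hval, -, -⟩ := hG x hx
    rw [kernel_eq_sum]
    have h1 : ∀ η ∈ cF, (ε η : ℂ) * (I η : G → ℂ) x * (η : H → ℂ) y =
        ∑ i, β i * ((ε η : ℂ) * (D i (I η) : ℂ) * (η : H → ℂ) y) := by
      intro η hη
      rw [hval (I η) (hI.mapsTo (hmem η hη)), Finset.mul_sum, Finset.sum_mul]
      exact Finset.sum_congr rfl fun i _ => by ring
    rw [Finset.sum_congr rfl h1, Finset.sum_comm]
    apply Finset.sum_eq_zero
    intro i _
    rw [← Finset.mul_sum, hB (D i) (hcol i) y hy, mul_zero]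
  intro x y
  by_cases hx : 2 ∣ orderOf x <;> by_cases hy : 2 ∣ orderOf y
  · -- both singular
    obtain ⟨ι, _, D, β, hcol, hval, hβ, hβ4⟩ := hG x hx
    obtain ⟨ι', _, D', β', hcol', hval', hβ', hβ4'⟩ := hH y hy
    choose S hS using fun (i : ι) (j : ι') => hC (D i) (D' j) (hcol i) (hcol' j)
    have hμ : signedBijectionKernel c I ε x y = ∑ i, ∑ j, (S i j : ℂ) * (4 * β i) * β' j := by
      rw [kernel_eq_sum]
      have h1 : ∀ η ∈ cF, (ε η : ℂ) * (I η : G → ℂ) x * (η : H → ℂ) y =
          ∑ i, ∑ j, β i * β' j * ((ε η * D i (I η) * D' j η : ℤ) : ℂ) := by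
        intro η hη
        rw [hval (I η) (hI.mapsTo (hmem η hη)), hval' η (hmem η hη), mul_assoc,
          Finset.sum_mul_sum, Finset.mul_sum]
        refine Finset.sum_congr rfl fun i _ => ?_
        rw [Finset.mul_sum]
        refine Finset.sum_congr rfl fun j _ => ?_
        push_cast; ring
      rw [Finset.sum_congr rfl h1, Finset.sum_comm]
      refine Finset.sum_congr rfl fun i _ => ?_
      rw [Finset.sum_comm]
      refine Finset.sum_congr rfl fun j _ => ?_
      rw [← Finset.mul_sum, ← Int.cast_sum, hS i j]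
      push_cast; ring
    refine ⟨?_, ?_, Or.inl ?_⟩
    · rw [hμ, Finset.sum_div]
      apply MemLocalRing.sum hMp
      intro i _
      rw [Finset.sum_div]
      apply MemLocalRing.sum hMp
      intro j _
      have : (S i j : ℂ) * (4 * β i) * β' j / (Nat.card (Subgroup.centralizer ({x} : Set G)) : ℂ) =
          (S i j : ℂ) * (4 * β i / (Nat.card (Subgroup.centralizer ({x} : Set G)) : ℂ)) * β' j := by
        ring
      rw [this]
      exact MemLocalRing.mul hMp (MemLocalRing.mul hMp (memLocalRing_intCast hMp _) (hβ4 i)) (hβ' j)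
    · rw [hμ, Finset.sum_div]
      apply MemLocalRing.sum hMp
      intro i _
      rw [Finset.sum_div]
      apply MemLocalRing.sum hMp
      intro j _
      have : (S i j : ℂ) * (4 * β i) * β' j / (Nat.card (Subgroup.centralizer ({y} : Set H)) : ℂ) =
          (S i j : ℂ) * β i * (4 * β' j / (Nat.card (Subgroup.centralizer ({y} : Set H)) : ℂ)) := by
        ring
      rw [this]
      exact MemLocalRing.mul hMp (MemLocalRing.mul hMp (memLocalRing_intCast hMp _) (hβ i)) (hβ4' j)
    · unfold IsPRegular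
      exact ⟨fun h => absurd hx h, fun h => absurd hy h⟩
  · rw [sep2 x y hx hy, zero_div, zero_div]
    exact ⟨memLocalRing_zero hMp, memLocalRing_zero hMp, Or.inr rfl⟩
  · rw [sep1 x y hx hy, zero_div, zero_div]
    exact ⟨memLocalRing_zero hMp, memLocalRing_zero hMp, Or.inr rfl⟩
  · refine ⟨?_, ?_, Or.inl ⟨fun _ => hy, fun _ => hx⟩⟩
    · apply memLocalRing_div_card_centralizer hM cF (fun η => (ε η : ℂ) * (η : H → ℂ) y)
        (fun η => (I η : G → ℂ)) (fun η _ => (IsIrrCharacter.isCharacter (I η).2))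
        (fun η _ => MemLocalRing.mul hMp (memLocalRing_intCast hMp _)
          (memLocalRing_char hMp ((IsIrrCharacter.isCharacter η.2)) y))
        (fun x' => signedBijectionKernel c I ε x' y)
      · intro x'
        rw [kernel_eq_sum]
        exact Finset.sum_congr rfl fun η _ => by ring
      · intro x' hx'
        exact sep2 x' y hx' hy
    · apply memLocalRing_div_card_centralizer hM cF (fun η => (ε η : ℂ) * (I η : G → ℂ) x)
        (fun η => (η : H → ℂ)) (fun η _ => (IsIrrCharacter.isCharacter η.2))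
        (fun η _ => MemLocalRing.mul hMp (memLocalRing_intCast hMp _)
          (memLocalRing_char hMp ((IsIrrCharacter.isCharacter (I η).2)) x))
        (fun y' => signedBijectionKernel c I ε x y')
      · intro y'
        rw [kernel_eq_sum]
      · intro y' hy'
        exact sep1 x y' hx hy'

end abstract

end Cfsg.Agent.Lib.Helper35
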