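import Mathlib
import Cfsg.Prelude.Def_Blocks
import Cfsg.Prelude.Def_BlockRank
import Cfsg.Prelude.Def_BlockLocal
import Cfsg.Agent.Lib.Helper35.KleinD
import Cfsg.Agent.Lib.Helper25.NilpotentCoprime
import Cfsg.Agent.Lib.Helper69.SylowCent
import Cfsg.Agent.S4726

/-!
# `2`-blocks with Klein four defect groups: the columns at `2`-singular elements
-/

set_option autoImplicit false
set_option linter.unusedSectionVars false

namespace Cfsg.Agent.Lib.Helper35

open Cfsg Cfsg.Agent.Lib.Helper78 Cfsg.Agent.Lib.Helper74 Cfsg.Agent.Lib.Helper4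
open Cfsg.Agent.Lib.Helper97 (regProj regProj_apply regProj_eq_pRegularPart pRegularPart_of_reg
  pRegularPart_of_sing)
open scoped ComplexConjugate

universe u

section cols

variable {G : Type u} [Group G] [Fintype G]
variable {M : Ideal AlgInt}

open Classical in
/-- the sign vector of a subsection at an involution is orthogonal to the regular columns -/
theorem isCol_of_column (hM : IsPModular 2 M) {B : Set (IrrCharacter G)} {u : G}
    (hu : orderOf u = 2) {e : Set (IrrCharacter (Cen u))} (he : IsInducedBlock M (Cen u) e B)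
    {φ : Cen u → ℂ} {D : IrrCharacter G → ℤ} (hφ1 : φ 1 ≠ 0)
    (hcol : ∀ χ : IrrCharacter G, ∀ s : Cen u, ¬ 2 ∣ orderOf s →
        blockPart e (tw u (χ : G → ℂ)) s = (D χ : ℂ) * φ s)
    (hD : ∀ χ ∈ B, D χ = 1 ∨ D χ = -1) : IsCol B D := by
  have : Fact (Nat.Prime 2) := ⟨Nat.prime_two⟩
  have hMp := pmod_isPrime hM
  have hB : IsPBlock M B := he.2.1
  refine ⟨hD, fun x hx => ?_⟩
  have heb : ∀ ψ ∈ e, blockOf M (ψ : Cen u → ℂ) ⊆ e := by
    intro ψ hψ
    rw [← IsPBlock.eq_blockOf hMp he.1 hψ]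
  have h1 : regProj 2 e (∑ χ ∈ Finset.univ.filter (· ∈ B),
        conj ((χ : G → ℂ) x) • tw u (χ : G → ℂ)) = regProj 2 e 0 := by
    apply Cfsg.Agent.Lib.Helper97.regProj_congr hM e heb
    · exact Cfsg.Agent.Lib.Helper97.isClassFunction_sum_smul _ _ _ fun χ _ =>
        Cfsg.Agent.S0923.twist_isClassFunction u (irr_isClassFunction χ)
    · intro g h; rfl
    · intro c hc
      have h2 := sum_block_mul_conj_eq_zero hM hB (g := u * (c : G)) (h := x) (x := u) (y := 1)
        ⟨c, rfl, (Subgroup.mem_centralizer_singleton_iff.mp c.2).symm, ⟨1, by rw [hu, pow_one]⟩,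
          by rwa [Subgroup.orderOf_coe]⟩
        ⟨x, one_mul x, Commute.one_left x, ⟨0, by rw [orderOf_one, pow_zero]⟩, hx⟩
        (by
          intro h
          have h3 : u = 1 := by
            have := (isConj_one_left).mp h
            exact this
          rw [h3, orderOf_one] at hu
          omega)
      rw [finsum_mem_irr, ← Finset.sum_filter] at h2
      simp only [Finset.sum_apply, Pi.smul_apply, smul_eq_mul, Pi.zero_apply]
      rw [← h2]
      exact Finset.sum_congr rfl fun χ _ => mul_comm _ _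
  rw [map_sum, map_zero] at h1
  simp only [map_smul] at h1
  have h3 := congrFun h1 1
  simp only [Finset.sum_apply, Pi.smul_apply, smul_eq_mul, Pi.zero_apply] at h3
  have h4 : ∀ χ : IrrCharacter G, regProj 2 e (tw u (χ : G → ℂ)) 1 = (D χ : ℂ) * φ 1 := by
    intro χ
    rw [regProj_eq_pRegularPart, pRegularPart_of_reg _ not_dvd_orderOf_one'',
      hcol χ 1 not_dvd_orderOf_one'']
  simp only [h4] at h3
  have h5 : (∑ χ ∈ Finset.univ.filter (· ∈ B), (D χ : ℂ) * conj ((χ : G → ℂ) x)) * φ 1 = 0 := by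
    rw [← h3, Finset.sum_mul]
    exact Finset.sum_congr rfl fun χ _ => by ring
  have h6 := (mul_eq_zero.mp h5).resolve_right hφ1
  have h7 := congrArg conj h6
  rw [map_sum, map_zero] at h7
  simp only [map_mul, Complex.conj_conj, map_intCast] at h7
  rw [← Finset.sum_filter]
  exact h7

/-- subsections of a block with a Klein four defect group -/
theorem subsection_facts (hM : IsPModular 2 M) {B : Set (IrrCharacter G)} {P : Subgroup G}
    (hPD : IsDefectGroup 2 M B P) (hV : IsKleinFour P) {u : G} (hu : ∃ k : ℕ, orderOf u = 2 ^ k)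
    (hu1 : u ≠ 1) {e : Set (IrrCharacter (Cen u))} (he : IsInducedBlock M (Cen u) e B) :
    orderOf u = 2 ∧ blockDefect 2 e = 2 := by
  have : Fact (Nat.Prime 2) := ⟨Nat.prime_two⟩
  have hMp := pmod_isPrime hM
  have hB : IsPBlock M B := he.2.1
  obtain ⟨D₀, hD₀⟩ := Cfsg.Agent.Lib.Helper16.exists_isDefectGroup hM he.1
  set Z : Subgroup (Cen u) := Subgroup.zpowers (cenSelf u) with hZ
  have hZn : Z.Normal := ⟨fun z hz g => by
    obtain ⟨k, rfl⟩ := hz
    have h1 : Commute g (cenSelf u ^ k) := Commute.zpow_right (cenSelf_central u g) k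
    rw [h1.eq, mul_inv_cancel_right]; exact ⟨k, rfl⟩⟩
  have hZp : IsPGroup 2 Z := by
    obtain ⟨k, hk⟩ := hu
    apply IsPGroup.of_card (n := k)
    rw [hZ, Nat.card_zpowers, ← Subgroup.orderOf_coe]
    exact hk
  have hZD : Z ≤ D₀ := le_trans (le_sSup (show Z ∈ {N : Subgroup (Cen u) | N.Normal ∧ IsPGroup 2 N}
    from ⟨hZn, hZp⟩)) (Cfsg.Agent.S0912.result 2 M hM e he.1 D₀ hD₀)
  have huD : u ∈ D₀.map (Cen u).subtype := ⟨cenSelf u, hZD (Subgroup.mem_zpowers _), rfl⟩
  have hC : Subgroup.centralizer ((D₀.map (Cen u).subtype : Subgroup G) : Set G) ≤ Cen u := by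
    intro g hg
    rw [Subgroup.mem_centralizer_singleton_iff]
    exact (Subgroup.mem_centralizer_iff.mp hg u huD).symm
  have hcomm : IsMulCommutative P := ⟨⟨fun a b => by
    have := hV
    exact (IsKleinFour.isMulCommutative (G := P)).is_comm.comm a b⟩⟩
  have h1 := ((Cfsg.Agent.S4726.result 2 M hM (Cen u) e he.1 D₀ hD₀ hC).2 B he).2 P hPD hcomm
  obtain ⟨x, hx⟩ := Cfsg.Agent.Lib.Helper16.IsDefectGroup.exists_conj_eq hM hB hPD h1
  constructor
  · rw [hx, Cfsg.Agent.Lib.Helper16.mem_cj] at huD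
    have h2 : (⟨x⁻¹ * u * x, huD⟩ : P) ≠ 1 := by
      intro h
      have h3 : x⁻¹ * u * x = 1 := congrArg Subtype.val h
      apply hu1
      have : u = x * (x⁻¹ * u * x) * x⁻¹ := by group
      rw [this, h3]; group
    have h3 : (⟨x⁻¹ * u * x, huD⟩ : P) * ⟨x⁻¹ * u * x, huD⟩ = 1 := IsKleinFour.mul_self _
    have h4 : x⁻¹ * u * x * (x⁻¹ * u * x) = 1 := congrArg Subtype.val h3
    have h5 : u ^ 2 = 1 := by
      have : u ^ 2 = x * (x⁻¹ * u * x * (x⁻¹ * u * x)) * x⁻¹ := by rw [sq]; group
      rw [this, h4]; group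
    exact orderOf_eq_prime h5 hu1
  · have h2 := card_of_isDefectGroup hM he.1 hD₀
    have h3 : Nat.card (D₀.map (Cen u).subtype) = Nat.card D₀ :=
      Subgroup.card_map_of_injective (Cen u).subtype_injective
    rw [hx, Cfsg.Agent.Lib.Helper16.card_cj, hV.card_four, h2] at h3
    exact (Nat.pow_right_injective (le_refl 2) (show 2 ^ 2 = 2 ^ blockDefect 2 e by omega)).symm

open Classical in
theorem blockPart_indSet_eq_sum (hMp : M.IsPrime) (u : G) (B : Set (IrrCharacter G))
    (f : Cen u → ℂ) (y : Cen u)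
    [Fintype {e : Set (IrrCharacter (Cen u)) // IsInducedBlock M (Cen u) e B}] :
    blockPart (indSet M u B) f y =
      ∑ e : {e : Set (IrrCharacter (Cen u)) // IsInducedBlock M (Cen u) e B},
        blockPart e.1 f y := by
  simp only [blockPart_eq_sum_ite]
  rw [Finset.sum_comm]
  refine Finset.sum_congr rfl fun ψ _ => ?_
  by_cases hψ : ψ ∈ indSet M u B
  · rw [if_pos hψ, Finset.sum_eq_single ⟨blockOf M (ψ : Cen u → ℂ), hψ⟩]
    · rw [if_pos (mem_blockOf_self hMp ψ)]
    · intro e _ hne
      rw [if_neg]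
      intro h
      apply hne
      apply Subtype.ext
      exact IsPBlock.eq_blockOf hMp e.2.1 h
    · intro h; exact absurd (Finset.mem_univ _) h
  · rw [if_neg hψ]
    symm
    apply Finset.sum_eq_zero
    intro e _
    rw [if_neg]
    intro h
    apply hψ
    show IsInducedBlock M _ _ B
    rw [← IsPBlock.eq_blockOf hMp e.2.1 h]
    exact e.2

theorem card_centralizer_cen {u s : G} (hc : Commute u s)
    (hcop : (orderOf u).Coprime (orderOf s)) (s' : Cen u) (hs' : (s' : G) = s) :
    Nat.card (Subgroup.centralizer ({u * s} : Set G)) =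
      Nat.card (Subgroup.centralizer ({s'} : Set (Cen u))) := by
  rw [Cfsg.Agent.Lib.Helper69.centralizer_mul_of_coprime hc hcop]
  have h1 : Subgroup.centralizer ({s'} : Set (Cen u)) =
      (Cen u ⊓ Subgroup.centralizer ({s} : Set G)).subgroupOf (Cen u) := by
    ext y
    rw [Subgroup.mem_subgroupOf, Subgroup.mem_inf, Subgroup.mem_centralizer_singleton_iff,
      Subtype.ext_iff, ← hs']
    constructor
    · intro h
      exact ⟨y.2, Subgroup.mem_centralizer_singleton_iff.mpr h⟩
    · intro h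
      exact Subgroup.mem_centralizer_singleton_iff.mp h.2
  rw [h1]
  exact (Nat.card_congr (Subgroup.subgroupOfEquivOfLe inf_le_left).toEquiv).symm

/-- **The columns of a block with a Klein four defect group.** -/
theorem kdata_of_klein (hM : IsPModular 2 M) {B : Set (IrrCharacter G)} (hB : IsPBlock M B)
    {P : Subgroup G} (hPD : IsDefectGroup 2 M B P) (hV : IsKleinFour P) : KData M G B := by
  classical
  have : Fact (Nat.Prime 2) := ⟨Nat.prime_two⟩
  have hMp := pmod_isPrime hM
  have hdB : blockDefect 2 B = 2 := by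
    have h2 := card_of_isDefectGroup hM hB hPD
    rw [hV.card_four] at h2
    exact (Nat.pow_right_injective (le_refl 2) (show 2 ^ 2 = 2 ^ blockDefect 2 B by omega)).symm
  intro x hx
  obtain ⟨u, hux, s, hsx, hxus, hu, hs⟩ :=
    Cfsg.Agent.Lib.Helper25.exists_pPart_mul_pPrimePart 2 Nat.prime_two x
  have hs2 : ¬ 2 ∣ orderOf s := by
    intro h
    have := Nat.Coprime.eq_one_of_dvd hs.symm h
    omega
  have hu1 : u ≠ 1 := by
    rintro rfl
    rw [one_mul] at hxus
    rw [hxus] at hx
    exact hs2 hx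
  have hcomm : Commute u s := by
    obtain ⟨i, rfl⟩ := hux
    obtain ⟨j, rfl⟩ := hsx
    exact Commute.zpow_zpow_self x i j
  have hcop : (orderOf u).Coprime (orderOf s) := by
    obtain ⟨k, hk⟩ := hu
    rw [hk]
    exact Nat.Coprime.pow_left k hs.symm
  let s' : Cen u := ⟨s, Subgroup.mem_centralizer_singleton_iff.mpr hcomm.eq.symm⟩
  have hs' : ¬ 2 ∣ orderOf s' := by rwa [← Subgroup.orderOf_coe]
  let ι := {e : Set (IrrCharacter (Cen u)) // IsInducedBlock M (Cen u) e B}
  have : Fintype ι := Fintype.ofFinite ι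
  have key := fun e : ι => exists_column hM hdB (subsection_facts hM hPD hV hu hu1 e.2).1 e.2
    (subsection_facts hM hPD hV hu hu1 e.2).2
  choose φ D d m h1 h2 h3 h4 h5 h6 using key
  refine ⟨ι, inferInstance, D, fun e => φ e s', fun e => isCol_of_column hM
    (subsection_facts hM hPD hV hu hu1 e.2).1 e.2 (h3 e) (h4 e) (h5 e), ?_, ?_, ?_⟩
  · intro χ hχ
    rw [hxus, apply_eq_blockPart_indSet hM u hu hB hχ s' hs', blockPart_indSet_eq_sum hMp]
    exact Finset.sum_congr rfl fun e _ => h4 e χ s' hs'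
  · intro e
    show MemLocalRing M (φ e s')
    rw [h1 e]
    apply MemLocalRing.sum hMp
    intro ψ _
    split_ifs
    · exact MemLocalRing.mul hMp (memLocalRing_intCast hMp _)
        (memLocalRing_char hMp (IsIrrCharacter.isCharacter ψ.2) _)
    · exact memLocalRing_zero hMp
  · intro e
    have h7 := memLocalRing_div_card_centralizer hM (Finset.univ.filter (· ∈ e.1))
      (fun ψ => (d e ψ : ℂ)) (fun ψ => (ψ : Cen u → ℂ))
      (fun ψ _ => IsIrrCharacter.isCharacter ψ.2)
      (fun ψ _ => by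
        have := memLocalRing_intCast hMp (d e ψ : ℤ)
        simpa using this)
      (fun y => 4 * pRegularPart 2 (φ e) y) (fun y => by rw [← h2 e y, Finset.sum_filter])
      (fun y hy => by rw [pRegularPart_of_sing _ hy, mul_zero]) s'
    rw [pRegularPart_of_reg _ hs'] at h7
    rw [hxus, card_centralizer_cen hcomm hcop s' rfl]
    exact h7

/-- existence of a sign vector -/
theorem exists_isCol (hM : IsPModular 2 M) {B : Set (IrrCharacter G)} (hB : IsPBlock M B)
    (hdB : blockDefect 2 B = 2) : ∃ D : IrrCharacter G → ℤ, IsCol B D := by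
  have : Fact (Nat.Prime 2) := ⟨Nat.prime_two⟩
  obtain ⟨y, hy, b, hb, hbd⟩ := exists_major_subsection hM hB (by omega)
  obtain ⟨φ, D, _, _, _, _, h3, h4, h5, _⟩ := exists_column hM hdB hy hb (by rw [hbd, hdB])
  exact ⟨D, isCol_of_column hM hy hb h3 h4 h5⟩

end cols

end Cfsg.Agent.Lib.Helper35
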