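import Mathlib
import Cfsg.Prelude.Def_Blocks
import Cfsg.Prelude.Def_BlockRank
import Cfsg.Prelude.Def_BlockLocal
import Cfsg.Agent.Lib.Helper35.KleinE

/-!
# Perfect isometries between `2`-blocks of defect two with the same rank
-/

set_option autoImplicit false
set_option linter.unusedSectionVars false

namespace Cfsg.Agent.Lib.Helper35

open Cfsg Cfsg.Agent.Lib.Helper78 Cfsg.Agent.Lib.Helper74 Cfsg.Agent.Lib.Helper4
open Cfsg.Agent.Lib.Helper97 (regProj regProj_apply regProj_eq_pRegularPart pRegularPart_of_reg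
  pRegularPart_of_sing)
open scoped ComplexConjugate

universe u

theorem exists_bijOn_of_card_eq {α β : Type*} {s : Set α} {t : Set β} [Finite s] [Finite t]
    (h : Nat.card s = Nat.card t) (ht : t.Nonempty) : ∃ f : α → β, Set.BijOn f s t := by
  classical
  have := Fintype.ofFinite s
  have := Fintype.ofFinite t
  let e : s ≃ t := Fintype.equivOfCardEq (by rwa [Nat.card_eq_fintype_card,
    Nat.card_eq_fintype_card] at h)
  obtain ⟨b₀, _⟩ := ht
  refine ⟨fun a => if h : a ∈ s then (e ⟨a, h⟩ : β) else b₀, ?_, ?_, ?_⟩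
  · intro a ha
    simp only [dif_pos ha]
    exact (e ⟨a, ha⟩).2
  · intro a ha a' ha' haa
    simp only [dif_pos ha, dif_pos ha'] at haa
    have := e.injective (Subtype.ext haa)
    exact congrArg Subtype.val this
  · intro b hb
    refine ⟨(e.symm ⟨b, hb⟩ : α), (e.symm ⟨b, hb⟩).2, ?_⟩
    simp only [dif_pos (e.symm ⟨b, hb⟩).2]
    simp

section main

variable {G : Type u} [Group G] [Fintype G] {H : Type u} [Group H] [Fintype H]
variable {M : Ideal AlgInt}

open Classical in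
theorem sum_reindex {A : Type*} [AddCommMonoid A] {B : Set (IrrCharacter G)}
    {c : Set (IrrCharacter H)} {I : IrrCharacter H → IrrCharacter G} (hI : Set.BijOn I c B)
    (f : IrrCharacter G → A) :
    ∑ η ∈ Finset.univ.filter (· ∈ c), f (I η) = ∑ χ ∈ Finset.univ.filter (· ∈ B), f χ := by
  apply Finset.sum_nbij I
  · intro η hη
    exact Finset.mem_filter.mpr ⟨Finset.mem_univ _, hI.mapsTo (Finset.mem_filter.mp hη).2⟩
  · intro a ha a' ha' h
    exact hI.injOn (by simpa using ha) (by simpa using ha') h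
  · intro χ hχ
    obtain ⟨η, hη, rfl⟩ := hI.surjOn (show χ ∈ B by simpa using hχ)
    exact ⟨η, by simpa using hη, rfl⟩
  · intro η _; rfl

theorem isCol_eq_or_neg {B : Set (IrrCharacter G)} (hcard : Nat.card B = blockRank 2 B + 1)
    (hne : B.Nonempty) {w D : IrrCharacter G → ℤ} (hw : IsCol B w) (hD : IsCol B D) :
    ∃ τ : ℤ, (τ = 1 ∨ τ = -1) ∧ ∀ χ ∈ B, D χ = τ * w χ := by
  obtain ⟨χ₀, hχ₀⟩ := hne
  have hw0 : (w χ₀ : ℂ) ≠ 0 := by
    rcases hw.1 χ₀ hχ₀ with h | h <;> rw [h] <;> norm_num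
  obtain ⟨t, ht⟩ := proportional_of_rank hcard (fun χ => (w χ : ℂ)) (fun χ => (D χ : ℂ)) hw.2 hD.2
    ⟨χ₀, hχ₀, hw0⟩
  have h1 : t = ((D χ₀ * w χ₀ : ℤ) : ℂ) := by
    have h2 := ht χ₀ hχ₀
    push_cast
    rw [h2]
    rcases hw.1 χ₀ hχ₀ with h | h <;> rw [h] <;> push_cast <;> ring
  refine ⟨D χ₀ * w χ₀, ?_, fun χ hχ => ?_⟩
  · rcases hw.1 χ₀ hχ₀ with h | h <;> rcases hD.1 χ₀ hχ₀ with h' | h' <;> rw [h, h'] <;> simp
  · have h2 := ht χ hχ
    rw [h1] at h2
    exact_mod_cast h2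

open Classical in
theorem card_filter_of_card {X : Type*} [Fintype X] {c : Set X} {n : ℕ} (h : Nat.card c = n) :
    (Finset.univ.filter (· ∈ c)).card = n := by
  rw [← h, Nat.card_eq_fintype_card, Fintype.card_subtype]

open Classical in
theorem exists_perfect_of_rank_three (hM : IsPModular 2 M) {B : Set (IrrCharacter G)}
    {c : Set (IrrCharacter H)} (hG : KData M G B) (hH : KData M H c) (hBne : B.Nonempty)
    (hcne : c.Nonempty) (hcardB : Nat.card B = 4) (hcardc : Nat.card c = 4)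
    (hlB : blockRank 2 B = 3) (hlc : blockRank 2 c = 3)
    {wB : IrrCharacter G → ℤ} (hwB : IsCol B wB) {wc : IrrCharacter H → ℤ} (hwc : IsCol c wc) :
    ∃ (I : IrrCharacter H → IrrCharacter G) (ε : IrrCharacter H → ℤ),
      IsPerfectIsometry 2 M c B I ε := by
  obtain ⟨I, hI⟩ := exists_bijOn_of_card_eq (hcardc.trans hcardB.symm) hBne
  refine ⟨I, fun η => wB (I η) * wc η, isPerfectIsometry_of_kdata hM hG hH I _ hI ?_ ?_ ?_ ?_⟩
  · intro η hη
    rcases hwB.1 (I η) (hI.mapsTo hη) with h | h <;> rcases hwc.1 η hη with h' | h' <;>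
      simp only [h, h'] <;> simp
  · intro D' hD' x hx
    obtain ⟨τ, -, hτ⟩ := isCol_eq_or_neg (by rw [hcardc, hlc]) hcne hwc hD'
    have h1 : ∀ η ∈ Finset.univ.filter (· ∈ c), ((wB (I η) * wc η : ℤ) : ℂ) * (D' η : ℂ) *
        (I η : G → ℂ) x = (τ : ℂ) * ((wB (I η) : ℂ) * (I η : G → ℂ) x) := by
      intro η hη
      have hη' := (Finset.mem_filter.mp hη).2
      rw [hτ η hη']
      rcases hwc.1 η hη' with h | h <;> rw [h] <;> push_cast <;> ring
    rw [Finset.sum_congr rfl h1, ← Finset.mul_sum,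
      sum_reindex hI (fun χ => (wB χ : ℂ) * (χ : G → ℂ) x), Finset.sum_filter, hwB.2 x hx, mul_zero]
  · intro D hD y hy
    obtain ⟨τ, -, hτ⟩ := isCol_eq_or_neg (by rw [hcardB, hlB]) hBne hwB hD
    have h1 : ∀ η ∈ Finset.univ.filter (· ∈ c), ((wB (I η) * wc η : ℤ) : ℂ) * (D (I η) : ℂ) *
        (η : H → ℂ) y = (τ : ℂ) * ((wc η : ℂ) * (η : H → ℂ) y) := by
      intro η hη
      have hη' := (Finset.mem_filter.mp hη).2
      rw [hτ (I η) (hI.mapsTo hη')]
      rcases hwB.1 (I η) (hI.mapsTo hη') with h | h <;> rw [h] <;> push_cast <;> ring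
    rw [Finset.sum_congr rfl h1, ← Finset.mul_sum, Finset.sum_filter, hwc.2 y hy, mul_zero]
  · intro D D' hD hD'
    obtain ⟨τ, -, hτ⟩ := isCol_eq_or_neg (by rw [hcardB, hlB]) hBne hwB hD
    obtain ⟨τ', -, hτ'⟩ := isCol_eq_or_neg (by rw [hcardc, hlc]) hcne hwc hD'
    have h1 : ∀ η ∈ Finset.univ.filter (· ∈ c), wB (I η) * wc η * D (I η) * D' η = τ * τ' := by
      intro η hη
      have hη' := (Finset.mem_filter.mp hη).2
      rw [hτ (I η) (hI.mapsTo hη'), hτ' η hη']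
      rcases hwB.1 (I η) (hI.mapsTo hη') with h | h <;> rcases hwc.1 η hη' with h' | h' <;>
        rw [h, h'] <;> ring
    rw [Finset.sum_congr rfl h1, Finset.sum_const, card_filter_of_card hcardc]
    exact ⟨τ * τ', by simp⟩

open Classical in
theorem const_of_rank_one (hM : IsPModular 2 M) {B : Set (IrrCharacter G)} (hB : IsPBlock M B)
    (hdB : blockDefect 2 B = 2) (hcard : Nat.card B = 4) (hl : blockRank 2 B = 1) :
    ∃ φ : G → ℂ, φ 1 ≠ 0 ∧ ∀ χ ∈ B, ∀ x, ¬ 2 ∣ orderOf x → (χ : G → ℂ) x = φ x := by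
  have : Fact (Nat.Prime 2) := ⟨Nat.prime_two⟩
  obtain ⟨φ, d, m, g₀, h1, h2, h3, h4, h5, h6, h7⟩ := rank_one_structure hM hB hl
  have hφ1 : φ 1 ≠ 0 := by rw [h5]; exact_mod_cast h4.ne'
  rw [hdB, ← Finset.sum_filter] at h6
  have h8 : ∑ χ ∈ Finset.univ.filter (· ∈ B), 1 = ∑ χ ∈ Finset.univ.filter (· ∈ B), d χ ^ 2 := by
    rw [h6, Finset.sum_const, card_filter_of_card hcard]; norm_num
  have h9 := (Finset.sum_eq_sum_iff_of_le (fun χ hχ => by
    have := h3 χ (Finset.mem_filter.mp hχ).2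
    exact Nat.one_le_pow _ _ this)).mp h8
  refine ⟨φ, hφ1, fun χ hχ x hx => ?_⟩
  have h10 := h9 χ (Finset.mem_filter.mpr ⟨Finset.mem_univ _, hχ⟩)
  have h11 : d χ = 1 := by
    have := h3 χ hχ
    nlinarith
  rw [h2 χ hχ x hx, h11]; simp

open Classical in
theorem sum_eq_zero_of_isCol {B : Set (IrrCharacter G)} {φ : G → ℂ} (hφ1 : φ 1 ≠ 0)
    (hφ : ∀ χ ∈ B, ∀ x, ¬ 2 ∣ orderOf x → (χ : G → ℂ) x = φ x) {D : IrrCharacter G → ℤ}
    (hD : IsCol B D) : ∑ χ ∈ Finset.univ.filter (· ∈ B), D χ = 0 := by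
  have : Fact (Nat.Prime 2) := ⟨Nat.prime_two⟩
  have h1 := hD.2 1 not_dvd_orderOf_one''
  rw [← Finset.sum_filter] at h1
  have h2 : ∀ χ ∈ Finset.univ.filter (· ∈ B), (D χ : ℂ) * (χ : G → ℂ) 1 = (D χ : ℂ) * φ 1 := by
    intro χ hχ
    rw [hφ χ (Finset.mem_filter.mp hχ).2 1 not_dvd_orderOf_one'']
  rw [Finset.sum_congr rfl h2, ← Finset.sum_mul] at h1
  have h3 := (mul_eq_zero.mp h1).resolve_right hφ1
  exact_mod_cast h3

open Classical in
theorem exists_perfect_of_rank_one (hM : IsPModular 2 M) {B : Set (IrrCharacter G)}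
    {c : Set (IrrCharacter H)} (hG : KData M G B) (hH : KData M H c) (hB : IsPBlock M B)
    (hc : IsPBlock M c) (hdB : blockDefect 2 B = 2) (hdc : blockDefect 2 c = 2)
    (hcardB : Nat.card B = 4) (hcardc : Nat.card c = 4)
    (hlB : blockRank 2 B = 1) (hlc : blockRank 2 c = 1) :
    ∃ (I : IrrCharacter H → IrrCharacter G) (ε : IrrCharacter H → ℤ),
      IsPerfectIsometry 2 M c B I ε := by
  have hMp := pmod_isPrime hM
  obtain ⟨I, hI⟩ := exists_bijOn_of_card_eq (hcardc.trans hcardB.symm) (IsPBlock.nonempty hMp hB)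
  obtain ⟨φB, hφB1, hφB⟩ := const_of_rank_one hM hB hdB hcardB hlB
  obtain ⟨φc, hφc1, hφc⟩ := const_of_rank_one hM hc hdc hcardc hlc
  refine ⟨I, fun _ => 1, isPerfectIsometry_of_kdata hM hG hH I _ hI ?_ ?_ ?_ ?_⟩
  · intro η _; left; rfl
  · intro D' hD' x hx
    have h1 : ∀ η ∈ Finset.univ.filter (· ∈ c), ((1 : ℤ) : ℂ) * (D' η : ℂ) *
        (I η : G → ℂ) x = (D' η : ℂ) * φB x := by
      intro η hη
      rw [hφB (I η) (hI.mapsTo (Finset.mem_filter.mp hη).2) x hx]; simp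
    rw [Finset.sum_congr rfl h1, ← Finset.sum_mul, ← Int.cast_sum,
      sum_eq_zero_of_isCol hφc1 hφc hD']
    simp
  · intro D hD y hy
    have h1 : ∀ η ∈ Finset.univ.filter (· ∈ c), ((1 : ℤ) : ℂ) * (D (I η) : ℂ) *
        (η : H → ℂ) y = (D (I η) : ℂ) * φc y := by
      intro η hη
      rw [hφc η (Finset.mem_filter.mp hη).2 y hy]; simp
    rw [Finset.sum_congr rfl h1, ← Finset.sum_mul, ← Int.cast_sum, sum_reindex hI D,
      sum_eq_zero_of_isCol hφB1 hφB hD]
    simp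
  · intro D D' hD hD'
    have h1 : ∑ η ∈ Finset.univ.filter (· ∈ c), D (I η) = 0 := by
      rw [sum_reindex hI D, sum_eq_zero_of_isCol hφB1 hφB hD]
    have h2 := sum_eq_zero_of_isCol hφc1 hφc hD'
    have h3 : ∑ η ∈ Finset.univ.filter (· ∈ c), 1 * D (I η) * D' η =
        ∑ η ∈ Finset.univ.filter (· ∈ c), (D (I η) - 1) * (D' η - 1) - 4 := by
      have h4 : ∀ η ∈ Finset.univ.filter (· ∈ c), (D (I η) - 1) * (D' η - 1) =
          1 * D (I η) * D' η - D (I η) - D' η + 1 := fun η _ => by ring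
      rw [Finset.sum_congr rfl h4, Finset.sum_add_distrib, Finset.sum_sub_distrib,
        Finset.sum_sub_distrib, h1, h2, Finset.sum_const, card_filter_of_card hcardc]
      simp
    rw [h3]
    apply dvd_sub _ (dvd_refl _)
    apply Finset.dvd_sum
    intro η hη
    have hη' := (Finset.mem_filter.mp hη).2
    rcases hD.1 (I η) (hI.mapsTo hη') with h | h <;> rcases hD'.1 η hη' with h' | h' <;>
      rw [h, h'] <;> norm_num

end main

end Cfsg.Agent.Lib.Helper35
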