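import Mathlib
import Cfsg.Prelude.Def_Blocks
import Cfsg.Prelude.Def_BlockRank
import Cfsg.Prelude.Def_BlockLocal
import Cfsg.Agent.Lib.Helper35.FirstMainExt
import Cfsg.Agent.S4637

/-!
# A block with a Klein four defect group and its Brauer correspondent have the same rank
-/

set_option autoImplicit false
set_option linter.unusedSectionVars false
set_option linter.style.haveILetI false

namespace Cfsg.Agent.Lib.Helper35

open Cfsg Cfsg.Agent.Lib.Helper78 Cfsg.Agent.Lib.Helper74
open Cfsg.Agent.Lib.Helper16 (irrCongr irrCongr_apply)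

universe u

section rk

variable {G : Type u} [Group G]

theorem centralizer_subgroupOf_eq {P N : Subgroup G} (hPN : P ≤ N) :
    Subgroup.centralizer ((P.subgroupOf N : Subgroup N) : Set N) =
      (Subgroup.centralizer (P : Set G)).subgroupOf N := by
  ext y
  rw [Subgroup.mem_subgroupOf, Subgroup.mem_centralizer_iff, Subgroup.mem_centralizer_iff]
  constructor
  · intro h g hg
    have := h ⟨g, hPN hg⟩ (by simpa [Subgroup.mem_subgroupOf] using hg)
    exact congrArg Subtype.val this
  · intro h g hg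
    exact Subtype.ext (h g hg)

theorem isKleinFour_of_mulEquiv {A B : Type*} [Group A] [Group B] (φ : A ≃* B)
    (h : IsKleinFour A) : IsKleinFour B where
  card_four := by rw [← Nat.card_congr φ.toEquiv]; exact h.card_four
  exponent_two := by rw [← Monoid.exponent_eq_of_mulEquiv φ]; exact h.exponent_two

/-- transport of the conjugation relation -/
theorem isConjCharOf_transport {N K : Subgroup G} {C' : Subgroup N} (φ : K ≃* C')
    (hφ : ∀ k : K, ((φ k : N) : G) = k) (n : N) (χ χ' : C' → ℂ) :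
    IsConjCharOf K (n : G) (χ ∘ φ) (χ' ∘ φ) ↔ IsConjCharOf C' n χ χ' := by
  constructor
  · intro h k k' hk
    have h1 := h (φ.symm k) (φ.symm k') (by
      rw [← hφ, ← hφ, MulEquiv.apply_symm_apply, MulEquiv.apply_symm_apply, hk]
      rfl)
    simpa using h1
  · intro h a a' ha
    exact h (φ a) (φ a') (by
      apply Subtype.ext
      show ((φ a' : N) : G) = (n : G) * ((φ a : N) : G) * (n : G)⁻¹
      rw [hφ, hφ, ha])

end rk

section main

variable {G : Type u} [Group G] [Fintype G] {M : Ideal AlgInt}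

theorem IsInducedBlock.trans' {p : ℕ} [Fact p.Prime] (H K : Subgroup G) [Fintype H] [Fintype K]
    (hM : IsPModular p M) (hKH : K ≤ H) {C' : Subgroup H} [Fintype C']
    (hC' : C' = K.subgroupOf H) {β' : Set (IrrCharacter C')} {c : Set (IrrCharacter H)}
    {B : Set (IrrCharacter G)} (h₁ : IsInducedBlock M C' β' c) (h₂ : IsInducedBlock M H c B) :
    IsInducedBlock M K (tr ((Subgroup.subgroupOfEquivOfLe hKH).symm.trans
      (MulEquiv.subgroupCongr hC'.symm)) β') B := by
  subst hC'
  exact IsInducedBlock.trans H K hM hKH h₁ h₂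

local notation "NP" P => Subgroup.normalizer ((P : Subgroup _) : Set _)

open Cfsg.Agent.Lib.Helper77 in
theorem blockRank_eq_of_correspondent (hM : IsPModular 2 M) {B : Set (IrrCharacter G)}
    (hB : IsPBlock M B) {P : Subgroup G} (hPD : IsDefectGroup 2 M B P) (hV : IsKleinFour P)
    {c : Set (IrrCharacter (Subgroup.normalizer (P : Set G)))}
    (hcD : IsDefectGroup 2 M c (P.subgroupOf (Subgroup.normalizer (P : Set G))))
    (hc : IsInducedBlock M (Subgroup.normalizer (P : Set G)) c B) :
    blockRank 2 c = blockRank 2 B ∧ (blockRank 2 B = 1 ∨ blockRank 2 B = 3) := by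
  classical
  haveI : Fact (Nat.Prime 2) := ⟨Nat.prime_two⟩
  haveI hMp : M.IsPrime := pmod_isPrime hM
  haveI : M.IsMaximal := hM.2.1
  haveI : CharP (Cfsg.Agent.Lib.Helper16.FM M) 2 := Cfsg.Agent.Lib.Helper16.charP_FM hM
  have hPN : P ≤ Subgroup.normalizer (P : Set G) := Subgroup.le_normalizer
  have hKN : Subgroup.centralizer (P : Set G) ≤ Subgroup.normalizer (P : Set G) :=
    Subgroup.centralizer_le_normalizer _
  have hV' : IsKleinFour (P.subgroupOf (Subgroup.normalizer (P : Set G))) :=
    isKleinFour_of_mulEquiv (Subgroup.subgroupOfEquivOfLe hPN).symm hV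
  have hC'eq := centralizer_subgroupOf_eq hPN
  have hP'C' := le_cen_of_isKleinFour hV'
  obtain ⟨b', hb'⟩ := Cfsg.Agent.Lib.Helper16.exists_induced_of_le_defect M 2
    (Subgroup.centralizer ((P.subgroupOf (Subgroup.normalizer (P : Set G)) : Subgroup _) : Set _))
    hM (Cfsg.Agent.Lib.Helper16.IsDefectGroup.isPGroup hcD) hP'C' le_rfl
    (Subgroup.centralizer_le_normalizer _) hc.1 hcD le_rfl
  have hb := IsInducedBlock.trans' _ _ hM hKN hC'eq hb' hc
  set φ := (Subgroup.subgroupOfEquivOfLe hKN).symm.trans (MulEquiv.subgroupCongr hC'eq.symm) with hφdef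
  have hφ : ∀ k : Subgroup.centralizer (P : Set G), ((φ k : Subgroup.normalizer (P : Set G)) : G) = k :=
    fun k => rfl
  have hT := fun g : G => mem_stabP_toA_iff M hb.1 (g := g)
  have hT' := fun g : Subgroup.normalizer (P : Set G) => mem_stabP_toA_iff M hb'.1 (g := g)
  have h1 := Cfsg.Agent.S4637.result M hM B hB P hPD hV _ hb _ hT _ rfl
  have h2 := Cfsg.Agent.S4637.result M hM c hc.1 _ hcD hV' b' hb' _ hT' _ rfl
  have hTT' : stabP (toA M ⟨P.subgroupOf (Subgroup.normalizer (P : Set G)), b'⟩) =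
      (stabP (toA M ⟨P, tr φ b'⟩)).subgroupOf (Subgroup.normalizer (P : Set G)) := by
    ext n
    rw [Subgroup.mem_subgroupOf, hT, hT']
    constructor
    · rintro ⟨-, -, h⟩
      refine ⟨n.2, normalizer_le_normalizer_centralizer P n.2, ?_⟩
      intro ξ hξ
      obtain ⟨χ, hχ, rfl⟩ := (mem_tr_iff φ).mp hξ
      obtain ⟨χ', hχ', hconj⟩ := h χ hχ
      exact ⟨irrCongr φ χ', (irrCongr_mem_tr φ).mpr hχ',
        (isConjCharOf_transport φ hφ n _ _).mpr hconj⟩
    · rintro ⟨-, -, h⟩
      have hn : n ∈ Subgroup.normalizer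
          ((P.subgroupOf (Subgroup.normalizer (P : Set G)) : Subgroup _) : Set _) := by
        rw [mem_normalizer_subgroupOf_iff hPN]
        exact n.2
      refine ⟨hn, normalizer_le_normalizer_centralizer _ hn, ?_⟩
      intro χ hχ
      obtain ⟨ξ', hξ', hconj⟩ := h (irrCongr φ χ) ((irrCongr_mem_tr φ).mpr hχ)
      obtain ⟨χ', hχ', rfl⟩ := (mem_tr_iff φ).mp hξ'
      exact ⟨χ', hχ', (isConjCharOf_transport φ hφ n _ _).mp hconj⟩
  have hTN : stabP (toA M ⟨P, tr φ b'⟩) ≤ Subgroup.normalizer (P : Set G) :=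
    fun g hg => ((hT g).mp hg).1
  obtain ⟨h1a, -, h1b⟩ := h1
  obtain ⟨-, -, h2b⟩ := h2
  rw [hC'eq, hTT', Subgroup.relIndex_subgroupOf hTN] at h2b
  exact ⟨h2b.trans h1b.symm, by rw [h1b]; exact h1a⟩

end main

end Cfsg.Agent.Lib.Helper35
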