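import Mathlib

set_option autoImplicit false

/-! Norm map `R → C` attached to a subgroup `S` of finite index of `F`, `R ≤ S` normal in `F`. -/

namespace Cfsg.Agent.Lib.Helper35.SchurTr

open scoped Pointwise

variable {F : Type*} [Group F] (S : Subgroup F) [S.FiniteIndex] (R : Subgroup F) [R.Normal]
variable {C : Type*} [CommGroup C] {C' : Type*} [CommGroup C']

/-- the norm of a homomorphism `R → C`: product over `F ⧸ S` of the conjugates. -/
noncomputable def norm (θ : R →* C) : R →* C :=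
  let _ := S.fintypeQuotientOfFiniteIndex
  ∏ q : F ⧸ S, θ.comp (MulAut.conjNormal (q.out)⁻¹ : MulAut R).toMonoidHom

theorem norm_apply (θ : R →* C) (r : R) :
    norm S R θ r =
      (let _ := S.fintypeQuotientOfFiniteIndex
       ∏ q : F ⧸ S, θ (MulAut.conjNormal (q.out)⁻¹ r)) := by
  simp only [norm, MonoidHom.finsetProd_apply]
  rfl

theorem map_norm (ψ : C →* C') (θ : R →* C) (r : R) :
    ψ (norm S R θ r) = norm S R (ψ.comp θ) r := by
  rw [norm_apply, norm_apply]
  simp only [map_prod]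
  rfl

theorem norm_mul (θ₁ θ₂ : R →* C) (r : R) :
    norm S R (θ₁ * θ₂) r = norm S R θ₁ r * norm S R θ₂ r := by
  rw [norm_apply, norm_apply, norm_apply]
  simp only [MonoidHom.mul_apply, Finset.prod_mul_distrib]

theorem norm_of_inv (θ : R →* C) (h : ∀ (f : F) (r : R), θ (MulAut.conjNormal f r) = θ r) (r : R) :
    norm S R θ r = θ r ^ S.index := by
  rw [norm_apply]
  letI := S.fintypeQuotientOfFiniteIndex
  simp only [h, Finset.prod_const, Finset.card_univ]
  congr 1
  rw [Subgroup.index, Nat.card_eq_fintype_card]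

theorem conj_congr (θ : R →* C) (hinv : ∀ s ∈ S, ∀ r : R, θ (MulAut.conjNormal s r) = θ r)
    (x y : F) (hxy : (x : F ⧸ S) = y) (r : R) :
    θ (MulAut.conjNormal x⁻¹ r) = θ (MulAut.conjNormal y⁻¹ r) := by
  have h1 : x⁻¹ * y ∈ S := QuotientGroup.eq.mp hxy
  have h2 : x⁻¹ = (x⁻¹ * y) * y⁻¹ := by group
  rw [h2, map_mul, MulAut.mul_apply, hinv _ h1]

theorem norm_conj (θ : R →* C) (hinv : ∀ s ∈ S, ∀ r : R, θ (MulAut.conjNormal s r) = θ r)
    (f : F) (r : R) : norm S R θ (MulAut.conjNormal f r) = norm S R θ r := by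
  rw [norm_apply, norm_apply]
  letI := S.fintypeQuotientOfFiniteIndex
  refine Fintype.prod_equiv (MulAction.toPerm f⁻¹) _ _ ?_
  intro q
  rw [← MulAut.mul_apply, ← map_mul]
  have h1 : (q.out)⁻¹ * f = (f⁻¹ * q.out)⁻¹ := by group
  rw [h1]
  apply conj_congr S R θ hinv
  rw [MulAction.toPerm_apply, QuotientGroup.out_eq']
  conv_rhs => rw [← QuotientGroup.out_eq' q]
  rfl

theorem norm_eq_transfer (hRS : R ≤ S) (ϕ : S →* C) (r : R) :
    norm S R (ϕ.comp (Subgroup.inclusion hRS)) r = MonoidHom.transfer ϕ (r : F) := by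
  have hf : ∀ q : F ⧸ S, ((q.out : F) : F ⧸ S) = q := fun q => QuotientGroup.out_eq' q
  let T : S.LeftTransversal := ⟨Set.range (fun q : F ⧸ S => q.out), Subgroup.isComplement_range_left hf⟩
  rw [MonoidHom.transfer_def ϕ T, norm_apply, Subgroup.leftTransversals.diff]
  letI := S.fintypeQuotientOfFiniteIndex
  refine Finset.prod_congr rfl ?_
  intro q _
  rw [MonoidHom.comp_apply]
  congr 1
  apply Subtype.ext
  have h3 : ((r : F)⁻¹ • q) = q := by
    conv_lhs => rw [← QuotientGroup.out_eq' q]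
    conv_rhs => rw [← QuotientGroup.out_eq' q]
    change (((r : F)⁻¹ * q.out : F) : F ⧸ S) = _
    rw [QuotientGroup.eq]
    have h4 : ((r : F)⁻¹ * q.out)⁻¹ * q.out = (q.out)⁻¹ * r * (q.out)⁻¹⁻¹ := by group
    rw [h4]
    exact hRS (‹R.Normal›.conj_mem _ r.2 _)
  simp only [Subgroup.coe_inclusion, MulAut.conjNormal_apply, inv_inv]
  rw [Subgroup.smul_apply_eq_smul_apply_inv_smul, h3]
  have h5 : ∀ q, (T.2.leftQuotientEquiv q : F) = q.out := fun q =>
    Subgroup.IsComplement.leftQuotientEquiv_apply hf q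
  rw [h5, smul_eq_mul, mul_assoc]

theorem norm_eq_one_of_mem_commutator (hRS : R ≤ S) (ϕ : S →* C) (r : R)
    (hr : (r : F) ∈ commutator F) : norm S R (ϕ.comp (Subgroup.inclusion hRS)) r = 1 := by
  rw [norm_eq_transfer]
  exact Abelianization.commutator_subset_ker _ hr

end Cfsg.Agent.Lib.Helper35.SchurTr
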