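import Mathlib

set_option autoImplicit false

namespace Cfsg.Agent.Lib.Helper35.SchurTr

/-- `r ∘ i = n`-th power with `p ∤ n`: the `p`-primary component of `A` is a direct factor of `B`. -/
theorem split {A B : Type*} [CommGroup A] [CommGroup B] [Finite A] (p n : ℕ) [hp : Fact p.Prime]
    (hn : ¬ p ∣ n) (i : A →* B) (r : B →* A) (h : ∀ a, r (i a) = a ^ n) :
    ∃ C D : Subgroup B, C ⊓ D = ⊥ ∧ C ⊔ D = ⊤ ∧
      Nonempty (CommGroup.primaryComponent A p ≃* C) := by
  obtain ⟨k, e, he, hcard⟩ := Nat.exists_eq_pow_mul_and_not_dvd (n := Nat.card A)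
    Nat.card_pos.ne' p hp.out.ne_one
  have hcop : p.Coprime (n * e) :=
    Nat.Coprime.mul_right ((Nat.Prime.coprime_iff_not_dvd hp.out).mpr hn)
      ((Nat.Prime.coprime_iff_not_dvd hp.out).mpr he)
  let E := (CommGroup.primaryComponent.isPGroup (G := A) (p := p)).powEquiv hcop
  have hE : ∀ a, E a = a ^ (n * e) := fun a => rfl
  let ρ : B →* A := (powMonoidHom e).comp r
  let j : CommGroup.primaryComponent A p →* B := i.comp (CommGroup.primaryComponent A p).subtype
  have hρj : ∀ a, ρ (j a) = ((E a : CommGroup.primaryComponent A p) : A) := by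
    intro a
    change (r (i a)) ^ e = _
    rw [h, hE, ← pow_mul]
    rfl
  have hρmem : ∀ b, ρ b ∈ CommGroup.primaryComponent A p := by
    intro b
    refine ⟨k, ?_⟩
    change ((r b) ^ e) ^ (p ^ k) = 1
    rw [← pow_mul, mul_comm, ← hcard, pow_card_eq_one']
  have hinj : Function.Injective j := by
    intro a a' haa
    apply E.injective
    apply Subtype.ext
    rw [← hρj, ← hρj, haa]
  refine ⟨j.range, ρ.ker, ?_, ?_, ⟨MonoidHom.ofInjective hinj⟩⟩
  · rw [eq_bot_iff]
    rintro x ⟨⟨a, rfl⟩, hx⟩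
    have h1 : ρ (j a) = 1 := hx
    rw [hρj] at h1
    have h2 : E a = E 1 := by
      apply Subtype.ext
      rw [h1, hE, one_pow]
      rfl
    rw [E.injective h2, map_one]
    exact Subgroup.mem_bot.mpr rfl
  · rw [eq_top_iff]
    intro b _
    obtain ⟨a, ha⟩ := E.surjective ⟨ρ b, hρmem b⟩
    have h1 : b = j a * ((j a)⁻¹ * b) := by group
    rw [h1]
    refine Subgroup.mul_mem_sup ⟨a, rfl⟩ ?_
    rw [MonoidHom.mem_ker, map_mul, map_inv, hρj, ha]
    simp

end Cfsg.Agent.Lib.Helper35.SchurTr
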