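import Mathlib
import Cfsg.Agent.Lib.Helper66.Hopf
import Cfsg.Agent.Lib.Helper35.SchurTrA

set_option autoImplicit false

namespace Cfsg.Agent.Lib.Helper35.SchurTr

open Cfsg.Agent.Lib.Helper66
open scoped commutatorElement

universe u

/-- the kernel of `F/[R,F] → G` is commutative -/
instance kerCommGroup (G : Type u) [Group G] : CommGroup (fcProj G).ker :=
  { (fcProj G).ker.toGroup with
    mul_comm := by
      rintro ⟨x, hx⟩ ⟨y, hy⟩
      apply Subtype.ext
      exact (Subgroup.mem_center_iff.mp (ker_fcProj_le_center G hy)) x }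

variable (G : Type u) [Group G] (H : Subgroup G)

/-- the free presentation -/
abbrev prs : FreeGroup G →* G := FreeGroup.lift (id : G → G)

theorem prs_surjective : Function.Surjective (prs G) := fun g => ⟨FreeGroup.of g, by simp⟩

/-- preimage of `H` in the free group -/
abbrev preS : Subgroup (FreeGroup G) := H.comap (prs G)

theorem relKer_le_preS : relKer G ≤ preS G H := by
  intro r hr
  have h1 : prs G r = 1 := hr
  change prs G r ∈ H
  rw [h1]; exact H.one_mem

/-- the lift of `S → H` to `F_H/[R_H,F_H]` (by Nielsen-Schreier) -/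
theorem exists_theta : ∃ θ : preS G H →* FreeCentral H,
    ∀ s : preS G H, fcProj H (θ s) = ⟨prs G s, s.2⟩ := by
  let f : IsFreeGroup.Generators (preS G H) → FreeCentral H := fun a =>
    Function.surjInv (fcProj_surjective H) ⟨prs G (IsFreeGroup.of a : preS G H), (IsFreeGroup.of a).2⟩
  refine ⟨IsFreeGroup.lift f, ?_⟩
  have h1 : (fcProj H).comp (IsFreeGroup.lift f) = (prs G).subgroupComap H := by
    apply IsFreeGroup.ext_hom
    intro a
    rw [MonoidHom.comp_apply, IsFreeGroup.lift_of]
    exact Function.surjInv_eq (fcProj_surjective H) _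
  intro s
  exact DFunLike.congr_fun h1 s

theorem prs_map (f : FreeGroup H) : prs G (FreeGroup.map Subtype.val f) = (prs H f : G) := by
  have h : (prs G).comp (FreeGroup.map (Subtype.val : H → G)) = H.subtype.comp (prs H) := by
    apply FreeGroup.ext_hom
    intro a
    simp
  exact DFunLike.congr_fun h f

theorem relComm_le_comap : relComm H ≤ (relComm G).comap (FreeGroup.map (Subtype.val : H → G)) := by
  rw [relComm, Subgroup.commutator_le]
  intro r hr f _
  rw [Subgroup.mem_comap, map_commutatorElement]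
  refine Subgroup.commutator_mem_commutator ?_ (Subgroup.mem_top _)
  change prs G _ = 1
  rw [prs_map]
  have : prs H r = 1 := hr
  rw [this]; rfl

/-- the natural map `F_H/[R_H,F_H] → F_G/[R_G,F_G]` -/
noncomputable def eta : FreeCentral H →* FreeCentral G :=
  QuotientGroup.map (relComm H) (relComm G) (FreeGroup.map (Subtype.val : H → G)) (relComm_le_comap G H)

theorem fcProj_eta (y : FreeCentral H) : fcProj G (eta G H y) = (fcProj H y : G) := by
  induction y using QuotientGroup.induction_on with
  | H f => exact prs_map G H f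

/-- `R → ker (F/[R,F] → G)` -/
noncomputable def mkR : relKer G →* (fcProj G).ker :=
  ((QuotientGroup.mk' (relComm G)).comp (relKer G).subtype).codRestrict _ (fun r => r.2)

theorem coe_mkR (r : relKer G) : ((mkR G r : (fcProj G).ker) : FreeCentral G) = QuotientGroup.mk (r : FreeGroup G) := rfl

theorem mkR_surjective : Function.Surjective (mkR G) := by
  rintro ⟨z, hz⟩
  induction z using QuotientGroup.induction_on with
  | H f => exact ⟨⟨f, hz⟩, rfl⟩

theorem mkR_conj (f : FreeGroup G) (r : relKer G) : mkR G (MulAut.conjNormal f r) = mkR G r := by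
  apply Subtype.ext
  rw [coe_mkR, coe_mkR, MulAut.conjNormal_apply, QuotientGroup.mk_mul, QuotientGroup.mk_mul,
    QuotientGroup.mk_inv]
  have h := Subgroup.mem_center_iff.mp (ker_fcProj_le_center G (mkR G r).2) (QuotientGroup.mk f)
  rw [coe_mkR] at h
  rw [h, mul_assoc, mul_inv_cancel, mul_one]

theorem ker_mkR_le {C : Type*} [CommGroup C] (N : relKer G →* C)
    (hN : ∀ (f : FreeGroup G) (r : relKer G), N (MulAut.conjNormal f r) = N r) :
    (mkR G).ker ≤ N.ker := by
  have h1 : relComm G ≤ N.ker.map (relKer G).subtype := by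
    rw [relComm, Subgroup.commutator_le]
    intro r hr f _
    refine ⟨(⟨r, hr⟩ : relKer G) * MulAut.conjNormal f (⟨r, hr⟩ : relKer G)⁻¹, ?_, ?_⟩
    · change N _ = 1
      rw [map_mul, hN, map_inv, mul_inv_cancel]
    · simp only [Subgroup.coe_subtype, Subgroup.coe_mul, MulAut.conjNormal_apply, Subgroup.coe_inv,
        commutatorElement_def]
      group
  intro r hr
  have h2 : ((mkR G r : (fcProj G).ker) : FreeCentral G) = 1 := by
    rw [MonoidHom.mem_ker.mp hr]; rfl
  rw [coe_mkR, QuotientGroup.eq_one_iff] at h2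
  obtain ⟨r', hr', h3⟩ := h1 h2
  have h4 : r' = r := Subtype.ext h3
  rw [← h4]; exact hr'

/-- restriction of `eta` to the kernels -/
noncomputable def etaZ : (fcProj H).ker →* (fcProj G).ker :=
  ((eta G H).comp (fcProj H).ker.subtype).codRestrict _ (fun y => by
    rw [MonoidHom.mem_ker, MonoidHom.comp_apply, fcProj_eta]
    have : fcProj H (y : FreeCentral H) = 1 := y.2
    rw [Subgroup.coe_subtype, this]; rfl)

theorem coe_etaZ (y : (fcProj H).ker) : ((etaZ G H y : (fcProj G).ker) : FreeCentral G) = eta G H y := rfl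

section theta

variable (θ : preS G H →* FreeCentral H) (hθ : ∀ s : preS G H, fcProj H (θ s) = ⟨prs G s, s.2⟩)

/-- restriction of `θ` to `R` -/
noncomputable def thetaR : relKer G →* (fcProj H).ker :=
  (θ.comp (Subgroup.inclusion (relKer_le_preS G H))).codRestrict _ (fun r => by
    rw [MonoidHom.mem_ker, MonoidHom.comp_apply, hθ]
    apply Subtype.ext
    exact r.2)

theorem coe_thetaR (r : relKer G) : ((thetaR G H θ hθ r : (fcProj H).ker) : FreeCentral H) =
    θ (Subgroup.inclusion (relKer_le_preS G H) r) := rfl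

theorem thetaR_conj (s : FreeGroup G) (hs : s ∈ preS G H) (r : relKer G) :
    thetaR G H θ hθ (MulAut.conjNormal s r) = thetaR G H θ hθ r := by
  apply Subtype.ext
  rw [coe_thetaR, coe_thetaR]
  have h1 : Subgroup.inclusion (relKer_le_preS G H) (MulAut.conjNormal s r) =
      (⟨s, hs⟩ : preS G H) * Subgroup.inclusion (relKer_le_preS G H) r * (⟨s, hs⟩ : preS G H)⁻¹ := by
    apply Subtype.ext
    simp [MulAut.conjNormal_apply]
  rw [h1, map_mul, map_mul, map_inv]
  have h := Subgroup.mem_center_iff.mp (ker_fcProj_le_center H (thetaR G H θ hθ r).2) (θ ⟨s, hs⟩)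
  rw [coe_thetaR] at h
  rw [h, mul_assoc, mul_inv_cancel, mul_one]

/-- the difference of the two maps `S → F_G/[R_G,F_G]` -/
noncomputable def delta : preS G H →* (fcProj G).ker :=
  MonoidHom.mk' (fun s => ⟨(QuotientGroup.mk (s : FreeGroup G) : FreeCentral G)⁻¹ * eta G H (θ s), by
    rw [MonoidHom.mem_ker, map_mul, map_inv, fcProj_eta, hθ]
    simp⟩) (by
    intro s t
    apply Subtype.ext
    have hc : (QuotientGroup.mk (s : FreeGroup G) : FreeCentral G)⁻¹ * eta G H (θ s) ∈
        Subgroup.center (FreeCentral G) := by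
      apply ker_fcProj_le_center G
      rw [MonoidHom.mem_ker, map_mul, map_inv, fcProj_eta, hθ]
      simp
    have h := Subgroup.mem_center_iff.mp hc (QuotientGroup.mk (t : FreeGroup G) : FreeCentral G)⁻¹
    simp only [Subgroup.coe_mul, QuotientGroup.mk_mul, map_mul, _root_.mul_inv_rev]
    calc (QuotientGroup.mk (t : FreeGroup G) : FreeCentral G)⁻¹ * (QuotientGroup.mk (s : FreeGroup G))⁻¹ *
          (eta G H (θ s) * eta G H (θ t))
        = ((QuotientGroup.mk (t : FreeGroup G) : FreeCentral G)⁻¹ * ((QuotientGroup.mk (s : FreeGroup G))⁻¹ *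
          eta G H (θ s))) * eta G H (θ t) := by group
      _ = _ := by rw [h]; group)

theorem coe_delta (s : preS G H) : ((delta G H θ hθ s : (fcProj G).ker) : FreeCentral G) =
    (QuotientGroup.mk (s : FreeGroup G) : FreeCentral G)⁻¹ * eta G H (θ s) := rfl

theorem etaZ_comp_thetaR : (etaZ G H).comp (thetaR G H θ hθ) =
    mkR G * (delta G H θ hθ).comp (Subgroup.inclusion (relKer_le_preS G H)) := by
  ext r
  rw [MonoidHom.comp_apply, coe_etaZ, coe_thetaR, MonoidHom.mul_apply, Subgroup.coe_mul, coe_mkR,
    MonoidHom.comp_apply, coe_delta]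
  simp

end theta

end Cfsg.Agent.Lib.Helper35.SchurTr
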