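import Mathlib
import Cfsg.Agent.Lib.Helper66.Hopf
import Cfsg.Agent.Lib.Helper35.SchurTrA
import Cfsg.Agent.Lib.Helper35.SchurTrC

set_option autoImplicit false

namespace Cfsg.Agent.Lib.Helper35.SchurTr

open Cfsg.Agent.Lib.Helper66
open scoped commutatorElement

universe u

variable (G : Type u) [Group G] (H : Subgroup G)

/-- transfer and corestriction between the Hopf multipliers of `G` and of a subgroup of finite index. -/
theorem exists_tr_cor [H.FiniteIndex] : ∃ (i : schurM G →* schurM H) (r : schurM H →* schurM G),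
    ∀ z, r (i z) = z ^ H.index := by
  obtain ⟨θ, hθ⟩ := exists_theta G H
  have hidx : (preS G H).index = H.index := Subgroup.index_comap_of_surjective H (prs_surjective G)
  haveI : (preS G H).FiniteIndex := ⟨by rw [hidx]; exact Subgroup.FiniteIndex.index_ne_zero⟩
  let N := norm (preS G H) (relKer G) (thetaR G H θ hθ)
  have hNconj : ∀ (f : FreeGroup G) (r : relKer G), N (MulAut.conjNormal f r) = N r :=
    norm_conj _ _ _ (thetaR_conj G H θ hθ)
  let Nbar : (fcProj G).ker →* (fcProj H).ker :=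
    (mkR G).liftOfSurjective (mkR_surjective G) ⟨N, ker_mkR_le G N hNconj⟩
  have hNbar : ∀ r, Nbar (mkR G r) = N r := fun r =>
    MonoidHom.liftOfRightInverse_comp_apply _ _ _ _ r
  have hrep : ∀ z : FreeCentral G, ∀ hz : z ∈ schurM G, ∃ r : relKer G,
      (r : FreeGroup G) ∈ commutator (FreeGroup G) ∧ mkR G r = ⟨z, hz.1⟩ := by
    intro z hz
    induction z using QuotientGroup.induction_on with
    | H f =>
      refine ⟨⟨f, hz.1⟩, ?_, rfl⟩
      have h1 := hz.2
      rw [← ker_abE] at h1
      rw [← ker_abF]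
      exact h1
  have hNcomm : ∀ r : relKer G, (r : FreeGroup G) ∈ commutator (FreeGroup G) →
      ((N r : (fcProj H).ker) : FreeCentral H) ∈ commutator (FreeCentral H) := by
    intro r hr
    let ψ : (fcProj H).ker →* Abelianization (FreeCentral H) :=
      Abelianization.of.comp (fcProj H).ker.subtype
    have h1 : ψ (N r) = 1 := by
      rw [map_norm]
      exact norm_eq_one_of_mem_commutator _ _ (relKer_le_preS G H) (Abelianization.of.comp θ) r hr
    rw [← Abelianization.ker_of]
    exact h1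
  have hle : schurM G ≤ (fcProj G).ker := inf_le_left
  let i₀ : schurM G →* schurM H :=
    ((fcProj H).ker.subtype.comp (Nbar.comp (Subgroup.inclusion hle))).codRestrict (schurM H) (by
      rintro ⟨z, hz⟩
      obtain ⟨r, hr, hrz⟩ := hrep z hz
      have h1 : Subgroup.inclusion hle ⟨z, hz⟩ = mkR G r := by rw [hrz]; rfl
      rw [MonoidHom.comp_apply, MonoidHom.comp_apply, h1, hNbar]
      exact ⟨(N r).2, hNcomm r hr⟩)
  let r₀ : schurM H →* schurM G :=
    ((eta G H).comp (schurM H).subtype).codRestrict (schurM G) (by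
      rintro ⟨y, hy⟩
      refine ⟨?_, map_commutator_le (eta G H) ⟨y, hy.2, rfl⟩⟩
      change fcProj G (eta G H y) = 1
      rw [fcProj_eta]
      have : fcProj H y = 1 := hy.1
      rw [this]; rfl)
  refine ⟨i₀, r₀, ?_⟩
  rintro ⟨z, hz⟩
  obtain ⟨r, hr, hrz⟩ := hrep z hz
  have h1 : Subgroup.inclusion hle ⟨z, hz⟩ = mkR G r := by rw [hrz]; rfl
  have h2 : etaZ G H (N r) = mkR G r ^ H.index := by
    rw [map_norm, etaZ_comp_thetaR, norm_mul, norm_of_inv _ _ _ (mkR_conj G),
      norm_eq_one_of_mem_commutator _ _ (relKer_le_preS G H) _ r hr, mul_one, hidx]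
  apply Subtype.ext
  have h3 : ((r₀ (i₀ ⟨z, hz⟩) : schurM G) : FreeCentral G) =
      eta G H ((Nbar (Subgroup.inclusion hle ⟨z, hz⟩) : (fcProj H).ker) : FreeCentral H) := rfl
  rw [h3, h1, hNbar, ← coe_etaZ, h2, hrz]
  rfl

end Cfsg.Agent.Lib.Helper35.SchurTr
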