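import Mathlib
import Cfsg.Prelude.Def_KGroupFacts
import Cfsg.Agent.Lib.Helper35.Transfer
import Cfsg.Agent.Lib.Helper35.Dual

set_option autoImplicit false

namespace Cfsg.Agent.Lib.Helper35

universe u v w

open Subgroup

/-- The restriction of an extension `σ : Γ → G` to the preimage of a subgroup `U`. -/
theorem subgroupComap_ker_le_center {Γ : Type u} {G : Type v} [Group Γ] [Group G] (σ : Γ →* G)
    (hσ : σ.ker ≤ center Γ) (U : Subgroup G) :
    (σ.subgroupComap U).ker ≤ center (U.comap σ) := by
  intro x hx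
  have h1 : (x : Γ) ∈ σ.ker := by
    rw [MonoidHom.mem_ker] at hx ⊢
    exact congrArg Subtype.val hx
  rw [mem_center_iff]
  intro g
  exact Subtype.ext (mem_center_iff.mp (hσ h1) g)

/-- `S3954` modulo the universal property of the multiplier of `U` (given as hypothesis `hB`). -/
theorem pow_index_range_embeds {Γ : Type u} {G : Type v} [Group Γ] [Group G] [Finite G]
    {σ : Γ →* G} (hσ : Cfsg.IsStemExtension σ) (U : Subgroup G)
    {A : Type w} [CommGroup A] (e : σ.ker ≃* A)
    {B : Type*} [CommGroup B] [Finite B]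
    (hB : ∃ f : B →* ↥((σ.subgroupComap U).ker ⊓ commutator (U.comap σ)), Function.Surjective f) :
    ∃ C : Subgroup B, Nonempty ((powMonoidHom U.index : A →* A).range ≃* C) := by
  obtain ⟨f, hf⟩ := hB
  obtain ⟨g, hg⟩ := exists_injective_of_surjective f hf
  set H := U.comap σ with hH
  have hidx : H.index = U.index := index_comap_of_surjective U hσ.1
  haveI : H.FiniteIndex := ⟨by rw [hidx]; exact FiniteIndex.index_ne_zero⟩
  have key : ∀ a : (powMonoidHom U.index : A →* A).range,
      ∃ h : ((e.symm a.1 : σ.ker) : Γ) ∈ H,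
        (⟨_, h⟩ : H) ∈ (σ.subgroupComap U).ker ⊓ commutator H := by
    rintro ⟨a, b, rfl⟩
    have hz := (e.symm b).2
    obtain ⟨h, h'⟩ := pow_index_mem_commutator H (hσ.2.1 hz) (hσ.2.2 hz)
    have e1 : ((e.symm (powMonoidHom U.index b) : σ.ker) : Γ) = ((e.symm b : σ.ker) : Γ) ^ H.index := by
      rw [hidx, powMonoidHom_apply, map_pow]; rfl
    have h2 : ((e.symm (powMonoidHom U.index b) : σ.ker) : Γ) ∈ H := by rw [e1]; exact h
    refine ⟨h2, mem_inf.mpr ⟨?_, ?_⟩⟩
    · rw [MonoidHom.mem_ker]
      apply Subtype.ext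
      exact (e.symm (powMonoidHom U.index b)).2
    · have : (⟨_, h2⟩ : H) = ⟨_, h⟩ := Subtype.ext e1
      rw [this]; exact h'
  let j : (powMonoidHom U.index : A →* A).range →* ↥((σ.subgroupComap U).ker ⊓ commutator H) :=
    { toFun := fun a => ⟨⟨_, (key a).choose⟩, (key a).choose_spec⟩
      map_one' := by
        apply Subtype.ext; apply Subtype.ext
        simp
      map_mul' := by
        intro a b
        apply Subtype.ext; apply Subtype.ext
        simp }
  have hj : Function.Injective j := by
    intro a b hab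
    have h1 : ((e.symm a.1 : σ.ker) : Γ) = ((e.symm b.1 : σ.ker) : Γ) :=
      congrArg (fun t => ((t : ↥((σ.subgroupComap U).ker ⊓ commutator H)) : H).1) hab
    exact Subtype.ext (e.symm.injective (Subtype.ext h1))
  exact ⟨(g.comp j).range, ⟨MonoidHom.ofInjective (hg.comp hj)⟩⟩

end Cfsg.Agent.Lib.Helper35
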