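import Mathlib

namespace Cfsg.Agent.Lib.Helper35.TISyl

open Polynomial in
theorem geom_poly {p : ℕ} [Fact p.Prime] {F : Type*} [Field F] [CharP F p] (n : ℕ) :
    ∑ i ∈ Finset.range (p ^ n), (X : F[X]) ^ i = (X - 1) ^ (p ^ n - 1) := by
  have hq : 1 ≤ p ^ n := Nat.one_le_pow _ _ (Fact.out : p.Prime).pos
  have hne : (X - 1 : F[X]) ≠ 0 := by
    have := X_sub_C_ne_zero (1 : F)
    simpa using this
  apply mul_left_cancel₀ hne
  rw [mul_geom_sum, ← pow_succ', Nat.sub_add_cancel hq, sub_pow_char_pow, one_pow]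

open Polynomial in
theorem geom_alg {p : ℕ} [Fact p.Prime] {F B : Type*} [Field F] [CharP F p] [Ring B]
    [Algebra F B] (c : B) (n : ℕ) :
    ∑ i ∈ Finset.range (p ^ n), c ^ i = (c - 1) ^ (p ^ n - 1) := by
  have := congrArg (aeval c) (geom_poly (p := p) (F := F) n)
  simpa using this

theorem sum_conj_eq {p : ℕ} [Fact p.Prime] {F V : Type*} [Field F] [CharP F p] [AddCommGroup V]
    [Module F V] (X Xi : Module.End F V) (h1 : X * Xi = 1) (h2 : Xi * X = 1) (n l : ℕ)
    (hl : l ≤ p ^ n) (hy : (X - 1) ^ l = 0) (φ : Module.End F V) :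
    ∃ ψ : Module.End F V,
      ∑ i ∈ Finset.range (p ^ n), X ^ i * φ * Xi ^ i = (X - 1) ^ (p ^ n - l) * ψ := by
  have hq : 1 ≤ p ^ n := Nat.one_le_pow _ _ (Fact.out : p.Prime).pos
  set q := p ^ n with hqdef
  -- nilpotency of Xi - 1
  have hXi : (Xi - 1) ^ l = 0 := by
    have e : Xi - 1 = (-Xi) * (X - 1) := by
      rw [mul_sub, neg_mul, h2, mul_one]; abel
    have hc : Commute (-Xi) (X - 1) := by
      show (-Xi) * (X - 1) = (X - 1) * (-Xi)
      rw [mul_sub, sub_mul, neg_mul, mul_neg, h1, h2]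
      simp
    rw [e, hc.mul_pow, hy, mul_zero]
  let L : Module.End F (Module.End F V) := LinearMap.mulLeft F X
  let R : Module.End F (Module.End F V) := LinearMap.mulRight F Xi
  have hLR : Commute L R := LinearMap.commute_mulLeft_right X Xi
  have hpow : ∀ i : ℕ, ((L * R) ^ i) φ = X ^ i * φ * Xi ^ i := by
    intro i
    rw [hLR.mul_pow]
    show (L ^ i) ((R ^ i) φ) = _
    rw [show L ^ i = LinearMap.mulLeft F (X ^ i) from LinearMap.pow_mulLeft F _ X i,
      show R ^ i = LinearMap.mulRight F (Xi ^ i) from LinearMap.pow_mulRight F _ Xi i]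
    simp [mul_assoc]
  have hsum : ∑ i ∈ Finset.range q, X ^ i * φ * Xi ^ i = ((L * R - 1) ^ (q - 1)) φ := by
    rw [← geom_alg (p := p) (F := F) (L * R) n, LinearMap.sum_apply]
    exact Finset.sum_congr rfl fun i _ => (hpow i).symm
  let A : Module.End F (Module.End F V) := LinearMap.mulLeft F (X - 1) * R
  let B : Module.End F (Module.End F V) := LinearMap.mulRight F (Xi - 1)
  have hAB : L * R - 1 = A + B := by
    ext f v
    simp [L, R, A, B, sub_mul, mul_sub]
  have hcAB : Commute A B := by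
    have c1 : Commute (LinearMap.mulLeft F (X - 1)) B := LinearMap.commute_mulLeft_right _ _
    have c2 : Commute R B := by
      show R * B = B * R
      ext f v
      simp only [R, B, Module.End.mul_apply, LinearMap.mulRight_apply, mul_assoc]
      simp
    exact c1.mul_left c2
  rw [hsum, hAB, hcAB.add_pow, LinearMap.sum_apply]
  have hterm : ∀ m ∈ Finset.range (q - 1 + 1), ∃ ψ : Module.End F V,
      (A ^ m * B ^ (q - 1 - m) * (((q - 1).choose m : ℕ) : Module.End F (Module.End F V))) φ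
        = (X - 1) ^ (q - l) * ψ := by
    intro m hm
    rw [Finset.mem_range] at hm
    have hA : A ^ m = LinearMap.mulLeft F ((X - 1) ^ m) * LinearMap.mulRight F (Xi ^ m) := by
      have c1 : Commute (LinearMap.mulLeft F (X - 1)) R := LinearMap.commute_mulLeft_right _ _
      show (LinearMap.mulLeft F (X - 1) * R) ^ m = _
      rw [c1.mul_pow, LinearMap.pow_mulLeft]
      congr 1
      exact LinearMap.pow_mulRight F _ Xi m
    have hB : B ^ (q - 1 - m) = LinearMap.mulRight F ((Xi - 1) ^ (q - 1 - m)) :=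
      LinearMap.pow_mulRight F _ _ _
    by_cases hb : l ≤ q - 1 - m
    · refine ⟨0, ?_⟩
      have : (Xi - 1) ^ (q - 1 - m) = 0 := by
        rw [← Nat.sub_add_cancel hb, pow_add, hXi, mul_zero]
      rw [hB, this]
      simp
    · have hml : q - l ≤ m := by omega
      obtain ⟨φ', hφ'⟩ : ∃ φ', φ' = (B ^ (q - 1 - m) *
        (((q - 1).choose m : ℕ) : Module.End F (Module.End F V))) φ := ⟨_, rfl⟩
      refine ⟨(X - 1) ^ (m - (q - l)) * φ' * Xi ^ m, ?_⟩
      rw [mul_assoc, Module.End.mul_apply, ← hφ', hA]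
      simp only [Module.End.mul_apply, LinearMap.mulLeft_apply, LinearMap.mulRight_apply]
      rw [← mul_assoc, ← mul_assoc, ← mul_assoc, ← pow_add, Nat.add_sub_cancel' hml]
  choose! ψ hψ using hterm
  refine ⟨∑ m ∈ Finset.range (q - 1 + 1), ψ m, ?_⟩
  rw [Finset.mul_sum]
  exact Finset.sum_congr rfl hψ

end Cfsg.Agent.Lib.Helper35.TISyl
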