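import Mathlib

namespace Cfsg.Agent.Lib.Helper35.TISyl

open Polynomial in
theorem natCast_pow_sub_one {p : ℕ} [Fact p.Prime] {F : Type*} [Field F] [CharP F p]
    (m : ℕ) (hm : ¬ p ∣ m) : (m : F) ^ (p - 1) = 1 := by
  have h0 : (m : ZMod p) ≠ 0 := by
    rw [Ne, ZMod.natCast_eq_zero_iff]
    exact hm
  have h1 := ZMod.pow_card_sub_one_eq_one h0
  have h2 := congrArg (ZMod.castHom (dvd_refl p) F) h1
  simpa using h2

open Polynomial in
theorem pow_sub_one_pow {p : ℕ} [Fact p.Prime] {F A : Type*} [Field F] [CharP F p] [Ring A]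
    [Algebra F A] (y : A) (m : ℕ) (hm : ¬ p ∣ m) :
    ∃ r : A, ((1 + y) ^ m - 1) ^ (p - 1) = y ^ (p - 1) + y ^ p * r := by
  have hp : 1 ≤ p := (Fact.out : p.Prime).one_le
  set h : F[X] := ∑ i ∈ Finset.range m, (1 + X) ^ i with hh
  have h1 : ((1 : F[X]) + X) ^ m - 1 = X * h := by
    rw [hh, ← mul_geom_sum]
    congr 1
    ring
  have h2 : (X : F[X]) ∣ h ^ (p - 1) - 1 := by
    rw [X_dvd_iff, coeff_zero_eq_eval_zero]
    simp only [eval_sub, eval_pow, eval_one, hh, eval_finsetSum, eval_add, eval_X, add_zero,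
      one_pow, Finset.sum_const, Finset.card_range, nsmul_eq_mul, mul_one]
    rw [natCast_pow_sub_one (p := p) m hm, sub_self]
  obtain ⟨k, hk⟩ := h2
  have h3 : (((1 : F[X]) + X) ^ m - 1) ^ (p - 1) = X ^ (p - 1) + X ^ p * k := by
    have h4 : h ^ (p - 1) = 1 + X * k := by rw [← hk]; ring
    rw [h1, mul_pow, h4]
    have : (X : F[X]) ^ p = X ^ (p - 1) * X := by
      rw [← pow_succ, Nat.sub_add_cancel hp]
    rw [this]
    ring
  refine ⟨aeval y k, ?_⟩
  have h5 := congrArg (aeval y) h3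
  simpa using h5

end Cfsg.Agent.Lib.Helper35.TISyl
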