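import Mathlib

namespace Cfsg.Agent.Lib.Helper35.TISyl

theorem sum_mem_of_free {P Ω E : Type*} [Group P] [Fintype P] [MulAction P Ω] [DecidableEq Ω]
    [AddCommGroup E] (W : AddSubgroup E) (act : P → E → E) (β : Ω → E)
    (hβ : ∀ u c, β (u • c) = act u (β c)) (hW : ∀ φ : E, ∑ u : P, act u φ ∈ W)
    (C : Finset Ω) (hC : ∀ u : P, ∀ c ∈ C, u • c ∈ C)
    (hfree : ∀ c ∈ C, ∀ u : P, u • c = c → u = 1) : ∑ c ∈ C, β c ∈ W := by
  induction' hn : C.card using Nat.strong_induction_on with n ih generalizing C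
  rcases C.eq_empty_or_nonempty with rfl | ⟨c₀, hc₀⟩
  · simp
  · set O : Finset Ω := Finset.univ.image (fun u : P => u • c₀) with hO
    have hOC : O ⊆ C := by
      intro c hc
      rw [hO, Finset.mem_image] at hc
      obtain ⟨u, -, rfl⟩ := hc
      exact hC u c₀ hc₀
    have hinj : Function.Injective (fun u : P => u • c₀) := by
      intro u v huv
      have h1 : (v⁻¹ * u) • c₀ = c₀ := by
        rw [mul_smul]
        have : u • c₀ = v • c₀ := huv
        rw [this, inv_smul_smul]
      have h2 := hfree c₀ hc₀ _ h1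
      have : u = v * (v⁻¹ * u) := by group
      rw [this, h2, mul_one]
    have hsumO : ∑ c ∈ O, β c ∈ W := by
      rw [hO, Finset.sum_image (fun a _ b _ h => hinj h)]
      simp only [hβ]
      exact hW _
    have hc₀O : c₀ ∈ O := by
      rw [hO, Finset.mem_image]
      exact ⟨1, Finset.mem_univ _, one_smul _ _⟩
    have hcard : (C \ O).card < n := by
      rw [← hn]
      apply Finset.card_lt_card
      refine ⟨Finset.sdiff_subset, fun h => ?_⟩
      have := h hc₀
      rw [Finset.mem_sdiff] at this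
      exact this.2 hc₀O
    have hrest : ∑ c ∈ C \ O, β c ∈ W := by
      refine ih _ hcard (C \ O) ?_ ?_ rfl
      · intro u c hc
        rw [Finset.mem_sdiff] at hc ⊢
        refine ⟨hC u c hc.1, fun h => hc.2 ?_⟩
        rw [hO, Finset.mem_image] at h ⊢
        obtain ⟨v, -, hv⟩ := h
        refine ⟨u⁻¹ * v, Finset.mem_univ _, ?_⟩
        show (u⁻¹ * v) • c₀ = c
        have hv' : v • c₀ = u • c := hv
        rw [mul_smul, hv', inv_smul_smul]
      · intro c hc
        exact hfree c (Finset.mem_sdiff.1 hc).1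
    rw [← Finset.sum_sdiff hOC]
    exact W.add_mem hrest hsumO

end Cfsg.Agent.Lib.Helper35.TISyl
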