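import Mathlib
import Cfsg.Prelude.Def_KGroupFacts
import Cfsg.Agent.Lib.Helper35.Stem

set_option autoImplicit false

namespace Cfsg.Agent.Lib.Helper35

universe u v w

open Subgroup
open scoped commutatorElement

variable {Γ : Type u} [Group Γ]

theorem commutatorElement_pow_right_of_central {a b : Γ} (hc : ⁅a, b⁆ ∈ center Γ) (k : ℕ) :
    ⁅a, b ^ k⁆ = ⁅a, b⁆ ^ k := by
  have h1 : a * b * a⁻¹ = ⁅a, b⁆ * b := by rw [commutatorElement_def]; group
  have hcb : Commute ⁅a, b⁆ b := (mem_center_iff.mp hc b).symm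
  rw [commutatorElement_def a (b ^ k), ← conj_pow, h1, hcb.mul_pow, mul_inv_cancel_right]

/-- A subgroup of the centre is normal. -/
theorem normal_of_le_center' {N : Subgroup Γ} (h : N ≤ center Γ) : N.Normal := by
  constructor
  intro n hn g
  rw [mem_center_iff.mp (h hn) g, mul_inv_cancel_right]
  exact hn

/-- In a stem extension of an abelian group generated by `σ a`, `σ b`, the kernel consists of powers of `[a, b]`. -/
theorem ker_le_zpowers_of_two_gen {G : Type v} [CommGroup G] {σ : Γ →* G}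
    (hσ : Cfsg.IsStemExtension σ) {a b : Γ} (hgen : closure {σ a, σ b} = ⊤) :
    σ.ker ≤ zpowers ⁅a, b⁆ := by
  have hc : ⁅a, b⁆ ∈ σ.ker := by
    rw [MonoidHom.mem_ker, map_commutatorElement, commutatorElement_eq_one_iff_mul_comm]
    exact mul_comm _ _
  have hgen' : closure ({a, b} ∪ (σ.ker : Set Γ)) = ⊤ := by
    apply closure_union_ker_eq_top
    rw [Set.image_pair]; exact hgen
  have hle : zpowers ⁅a, b⁆ ≤ center Γ := by
    rw [zpowers_le]; exact hσ.2.1 hc
  haveI := normal_of_le_center' hle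
  refine hσ.2.2.trans (commutator_le_of_closure hgen' _ ?_)
  have hcen : ∀ s ∈ σ.ker, ∀ t, ⁅s, t⁆ ∈ zpowers ⁅a, b⁆ ∧ ⁅t, s⁆ ∈ zpowers ⁅a, b⁆ := by
    intro s hs t
    have h1 : ⁅s, t⁆ = 1 := by
      rw [commutatorElement_eq_one_iff_mul_comm]; exact (mem_center_iff.mp (hσ.2.1 hs) t).symm
    have h2 : ⁅t, s⁆ = 1 := by
      rw [commutatorElement_eq_one_iff_mul_comm]; exact (mem_center_iff.mp (hσ.2.1 hs) t)
    rw [h1, h2]; exact ⟨one_mem _, one_mem _⟩
  have hab : ⁅a, b⁆ ∈ zpowers ⁅a, b⁆ := mem_zpowers _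
  have hba : ⁅b, a⁆ ∈ zpowers ⁅a, b⁆ := by
    have : ⁅b, a⁆ = ⁅a, b⁆⁻¹ := (commutatorElement_inv a b).symm
    rw [this]; exact inv_mem hab
  intro s hs t ht
  rcases hs with hs | hs
  · rcases ht with ht | ht
    · rcases hs with rfl | hs <;> rcases ht with rfl | ht
      · rw [commutatorElement_self]; exact one_mem _
      · rw [Set.mem_singleton_iff] at ht; rw [ht]; exact hab
      · rw [Set.mem_singleton_iff] at hs; rw [hs]; exact hba
      · rw [Set.mem_singleton_iff] at hs ht; rw [hs, ht, commutatorElement_self]; exact one_mem _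
    · exact (hcen t ht s).2
  · exact (hcen s hs t).1

/-- ... and if `(σ b) ^ n = 1` the kernel is cyclic of order dividing `n`. -/
theorem ker_cyclic_of_two_gen {G : Type v} [CommGroup G] {σ : Γ →* G}
    (hσ : Cfsg.IsStemExtension σ) {a b : Γ} (hgen : closure {σ a, σ b} = ⊤) {n : ℕ}
    (hn : (σ b) ^ n = 1) : IsCyclic σ.ker ∧ Nat.card σ.ker ∣ n := by
  have hle := ker_le_zpowers_of_two_gen hσ hgen
  have hc : ⁅a, b⁆ ∈ σ.ker := by
    rw [MonoidHom.mem_ker, map_commutatorElement, commutatorElement_eq_one_iff_mul_comm]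
    exact mul_comm _ _
  have hpow : ⁅a, b⁆ ^ n = 1 := by
    rw [← commutatorElement_pow_right_of_central (hσ.2.1 hc), commutatorElement_eq_one_iff_mul_comm]
    have : b ^ n ∈ σ.ker := by rw [MonoidHom.mem_ker, map_pow, hn]
    exact (mem_center_iff.mp (hσ.2.1 this) a)
  refine ⟨isCyclic_of_le hle, ?_⟩
  calc Nat.card σ.ker ∣ Nat.card (zpowers ⁅a, b⁆) := card_dvd_of_le hle
    _ = orderOf ⁅a, b⁆ := Nat.card_zpowers _
    _ ∣ n := orderOf_dvd_of_pow_eq_one hpow

end Cfsg.Agent.Lib.Helper35
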